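import Mathlib
import Cfsg.Agent.H12.Alperin
import Cfsg.Agent.Tr.Dihedral2
import Cfsg.Agent.Lib.Helper8.Idx

/-!
# Subgroups of order four in a dihedral Sylow 2-subgroup: fusion preserves normal subgroups of `P`
-/

set_option autoImplicit false

namespace Cfsg.Agent.Lib.Helper8.DK

open Cfsg.Agent.H12

variable {G : Type*} [Group G]

/-- conjugation by `g` preserves membership in `D` of the order four subgroups of `T`. -/
def CC (D : Subgroup G) (T : Subgroup G) (g : G) : Prop :=
  ∀ V : Subgroup G, V ≤ T → Nat.card V = 4 → (V ≤ D ↔ cj V g ≤ D)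

theorem fc (P D : Subgroup G) : FusionClosed P (CC D) where
  comp := by
    intro T g h _ _ _ h1 h2 V hV h4
    rw [h1 V hV h4, h2 (cj V g) (cj_mono hV g) (by rw [card_cj, h4]), cj_mul]
  inv := by
    intro T g _ _ h1 V hV h4
    have hV' : cj V g⁻¹ ≤ T := by
      have := cj_mono hV g⁻¹
      rwa [cj_cj_inv] at this
    have := h1 (cj V g⁻¹) hV' (by rw [card_cj, h4])
    rw [cj_inv_cj] at this
    exact this.symm
  res := by
    intro T T' g hT' _ _ h1 V hV h4
    exact h1 V (hV.trans hT') h4

variable [Finite G]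

theorem step {m : ℕ} (P : Sylow 2 G) (e : (P : Subgroup G) ≃* DihedralGroup m) (D : Subgroup G)
    (hD : ∀ s ∈ (P : Subgroup G), cj D s = D) {U : Subgroup G} (hU : U ≤ P)
    (hfn : FullyNormalized 2 P U) : ∀ y ∈ Subgroup.normalizer (U : Set G), CC D U y := by
  have hC := fc (P : Subgroup G) D
  have h1 : CC D U 1 := by
    intro V _ _
    have : cj V 1 = V := cj_eq_self (one_mem _)
    rw [this]
  set K := chainSubgroup (P := P) hC U hU h1 with hK
  have hPN : (P : Subgroup G) ⊓ Subgroup.normalizer (U : Set G) ≤ K := by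
    intro s hs
    refine ⟨hs.2, ?_⟩
    intro V hV h4
    constructor
    · intro h; rw [← hD s hs.1]; exact cj_mono h s
    · intro h
      have := cj_mono h s⁻¹
      rwa [cj_cj_inv, hD s⁻¹ (inv_mem hs.1)] at this
  have hodd : ∀ g ∈ Subgroup.normalizer (U : Set G), Odd (orderOf g) → g ∈ K := by
    intro g hg ho
    refine ⟨hg, ?_⟩
    intro V hV h4
    rcases Cfsg.Agent.Tr.Dih.centralizes_or_four e P.2 hU hg
      ho.coprime_two_right with hc | ⟨hc4, _⟩
    · have : V = cj V g := by
        refine eq_of_le_of_card_eq ?_ (card_cj V g).symm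
        intro x hx
        rw [mem_cj]
        have := Subgroup.mem_centralizer_iff.mp hc x (hV hx)
        have hxe : g * x * g⁻¹ = x := by rw [← this]; group
        rwa [hxe]
      rw [← this]
    · have hVU : V = U := eq_of_le_of_card_eq hV (by rw [h4, hc4])
      rw [hVU, cj_eq_self hg]
  obtain ⟨a, ha⟩ := Idx.relIndex_eq_two_pow (M := K) (K := Subgroup.normalizer (U : Set G)) hodd
  have hdvd : K.relIndex (Subgroup.normalizer (U : Set G)) ∣
      ((P : Subgroup G) ⊓ Subgroup.normalizer (U : Set G)).relIndex (Subgroup.normalizer (U : Set G)) :=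
    Subgroup.relIndex_dvd_of_le_left _ hPN
  have h1' : K.relIndex (Subgroup.normalizer (U : Set G)) = 1 := by
    rcases a with _ | a
    · simpa using ha
    · exfalso
      apply hfn
      refine dvd_trans ?_ hdvd
      rw [ha, pow_succ]
      exact Dvd.intro_left _ rfl
  have hle := Subgroup.relIndex_eq_one.mp h1'
  intro y hy
  exact (hle hy).2

theorem nc {m : ℕ} (P : Sylow 2 G) (e : (P : Subgroup G) ≃* DihedralGroup m) (D : Subgroup G)
    (hD : ∀ s ∈ (P : Subgroup G), cj D s = D) :
    ∀ T : Subgroup G, T ≤ P → ∀ g, cj T g ≤ P → CC D T g := by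
  haveI : Fact (Nat.Prime 2) := ⟨Nat.prime_two⟩
  apply alperin_abstract P (CC D) (fc _ D)
  · intro g hg
    refine step P e D hD le_rfl ?_ g hg
    unfold FullyNormalized
    rw [inf_eq_left.mpr Subgroup.le_normalizer]
    intro h
    exact P.not_dvd_index (dvd_trans h (Subgroup.relIndex_dvd_index_of_le Subgroup.le_normalizer))
  · intro T hT _
    obtain ⟨h, h1, h2⟩ := exists_fully_normalized P T (P.2.to_le hT)
    exact ⟨h, h1, h2, fun _ => step P e D hD h1 h2⟩

end Cfsg.Agent.Lib.Helper8.DK
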