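import Mathlib
import Cfsg.Agent.Lib.Helper8.DK1
import Cfsg.Agent.Lib.Helper8.QDRing
import Cfsg.Agent.H14.Klein

/-!
# Classes of four-subgroups in a group with dihedral Sylow 2-subgroups
-/

set_option autoImplicit false

namespace Cfsg.Agent.Lib.Helper8.DK

open Cfsg.Agent.H14 DihedralGroup

/-- the parity character of a dihedral 2-group -/
def chi (n : ℕ) (hn : 1 ≤ n) : DihedralGroup (2 ^ n) →* Multiplicative (ZMod 2) where
  toFun x := match x with
    | .r i => Multiplicative.ofAdd (QDR.par n hn i)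
    | .sr i => Multiplicative.ofAdd (QDR.par n hn i)
  map_one' := by
    change Multiplicative.ofAdd (QDR.par n hn 0) = 1
    simp
  map_mul' := by
    rintro (i | i) (j | j)
    · change Multiplicative.ofAdd (QDR.par n hn (i + j)) = _
      rw [map_add]; rfl
    · change Multiplicative.ofAdd (QDR.par n hn (j - i)) =
        Multiplicative.ofAdd (QDR.par n hn i) * Multiplicative.ofAdd (QDR.par n hn j)
      rw [map_sub, ← ofAdd_add]
      congr 1
      generalize QDR.par n hn i = a
      generalize QDR.par n hn j = b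
      revert a b; decide
    · change Multiplicative.ofAdd (QDR.par n hn (i + j)) = _
      rw [map_add]; rfl
    · change Multiplicative.ofAdd (QDR.par n hn (j - i)) =
        Multiplicative.ofAdd (QDR.par n hn i) * Multiplicative.ofAdd (QDR.par n hn j)
      rw [map_sub, ← ofAdd_add]
      congr 1
      generalize QDR.par n hn i = a
      generalize QDR.par n hn j = b
      revert a b; decide

theorem chi_r (n : ℕ) (hn : 1 ≤ n) (i : ZMod (2 ^ n)) :
    chi n hn (r i) = Multiplicative.ofAdd (QDR.par n hn i) := rfl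

theorem chi_sr (n : ℕ) (hn : 1 ≤ n) (i : ZMod (2 ^ n)) :
    chi n hn (sr i) = Multiplicative.ofAdd (QDR.par n hn i) := rfl

theorem zmod_two_one_ne : (1 : ZMod 2) ≠ 0 := by decide

variable {G : Type*} [Group G]

theorem map_conj_mul (V : Subgroup G) (c y : G) :
    V.map (MulAut.conj (c * y)).toMonoidHom =
      (V.map (MulAut.conj y).toMonoidHom).map (MulAut.conj c).toMonoidHom := by
  rw [Subgroup.map_map]
  congr 1
  ext v
  simp [mul_assoc]

theorem map_conj_one (V : Subgroup G) : V.map (MulAut.conj (1 : G)).toMonoidHom = V := by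
  ext v
  simp

theorem klein_map_conj {V : Subgroup G} (hV : IsKleinFour V) (y : G) :
    IsKleinFour (V.map (MulAut.conj y).toMonoidHom) := by
  apply isKleinFour_of_card_of_sq
  · rw [Cfsg.Agent.H12.card_map_conj, hV.card_four]
  · rintro _ ⟨v, hv, rfl⟩
    have := klein_mul_self' hV hv
    change y * v * y⁻¹ * (y * v * y⁻¹) = 1
    calc y * v * y⁻¹ * (y * v * y⁻¹) = y * (v * v) * y⁻¹ := by group
      _ = 1 := by rw [this]; group

theorem klein_isPGroup {V : Subgroup G} (hV : IsKleinFour V) : IsPGroup 2 V :=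
  IsPGroup.of_card (n := 2) (by rw [hV.card_four]; norm_num)

variable [Finite G]

theorem part_one (S : Sylow 2 G) (h4 : Nat.card S = 4) (U V : Subgroup G) (hU : IsKleinFour U)
    (hV : IsKleinFour V) : ∃ x : G, U.map (MulAut.conj x).toMonoidHom = V := by
  haveI : Fact (Nat.Prime 2) := ⟨Nat.prime_two⟩
  obtain ⟨a, ha⟩ := Cfsg.Agent.H12.exists_conj_le_sylow S (klein_isPGroup hU)
  obtain ⟨b, hb⟩ := Cfsg.Agent.H12.exists_conj_le_sylow S (klein_isPGroup hV)
  have ha' : U.map (MulAut.conj a).toMonoidHom = S :=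
    Cfsg.Agent.H12.eq_of_le_of_card_eq ha (by
      rw [Cfsg.Agent.H12.card_map_conj, hU.card_four]; exact h4.symm)
  have hb' : V.map (MulAut.conj b).toMonoidHom = S :=
    Cfsg.Agent.H12.eq_of_le_of_card_eq hb (by
      rw [Cfsg.Agent.H12.card_map_conj, hV.card_four]; exact h4.symm)
  refine ⟨b⁻¹ * a, ?_⟩
  rw [map_conj_mul, ha', ← hb', ← map_conj_mul, inv_mul_cancel, map_conj_one]

theorem part_two (S : Sylow 2 G) (n : ℕ) (hn : 2 ≤ n) (e : (S : Subgroup G) ≃* DihedralGroup (2 ^ n)) :
    ∃ U₁ U₂ : Subgroup G, IsKleinFour U₁ ∧ IsKleinFour U₂ ∧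
      ¬ (∃ x : G, U₁.map (MulAut.conj x).toMonoidHom = U₂) ∧
      ∀ V : Subgroup G, IsKleinFour V → (∃ x : G, V.map (MulAut.conj x).toMonoidHom = U₁) ∨
        (∃ x : G, V.map (MulAut.conj x).toMonoidHom = U₂) := by
  haveI : Fact (Nat.Prime 2) := ⟨Nat.prime_two⟩
  have hn1 : 1 ≤ n := by omega
  set ι : DihedralGroup (2 ^ n) →* G := (S : Subgroup G).subtype.comp e.symm.toMonoidHom with hι
  have hinj : Function.Injective ι := (S : Subgroup G).subtype_injective.comp e.symm.injective
  have hmem : ∀ x, ι x ∈ (S : Subgroup G) := fun x => (e.symm x).2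
  have hsurj : ∀ g ∈ (S : Subgroup G), ∃ x, ι x = g := by
    intro g hg
    refine ⟨e ⟨g, hg⟩, ?_⟩
    simp [hι]
  set h := QDR.hh n with hh
  have hh2 : h + h = 0 := QDR.hh_add_hh hn1
  have hneg : -h = h := QDR.neg_hh hn1
  have hne : h ≠ 0 := QDR.hh_ne hn1
  set z := ι (r h) with hz
  have hzz : z * z = 1 := by
    rw [hz, ← map_mul, r_mul_r, hh2, ← one_def, map_one]
  have hz1 : z ≠ 1 := by
    intro hc
    rw [hz, ← map_one ι] at hc
    have := hinj hc
    rw [one_def] at this
    injection this with h'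
    exact hne h'
  have hss : ∀ j, ι (sr j) * ι (sr j) = 1 := by
    intro j
    rw [← map_mul, sr_mul_sr, sub_self, ← one_def, map_one]
  have hs1 : ∀ j, ι (sr j) ≠ 1 := by
    intro j hc
    rw [← map_one ι] at hc
    have := hinj hc
    rw [one_def] at this
    cases this
  have hzs : ∀ j, z * ι (sr j) = ι (sr j) * z := by
    intro j
    rw [hz, ← map_mul, ← map_mul, r_mul_sr, sr_mul_r, sub_eq_add_neg, hneg]
  have hzne : ∀ j, z ≠ ι (sr j) := by
    intro j hc
    have := hinj hc
    cases this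
  have hK : ∀ j, IsKleinFour (Subgroup.closure ({z, ι (sr j)} : Set G)) := fun j =>
    isKleinFour_closure hzz (hss j) (hzs j) hz1 (hs1 j) (hzne j)
  have hUS : ∀ j, Subgroup.closure ({z, ι (sr j)} : Set G) ≤ S := by
    intro j
    rw [Subgroup.closure_le]
    intro x hx
    simp only [Set.mem_insert_iff, Set.mem_singleton_iff] at hx
    rcases hx with rfl | rfl
    · exact hmem _
    · exact hmem _
  -- the normal subgroup D
  set D : Subgroup G := (chi n hn1).ker.map ι with hD
  have hDmem : ∀ x, ι x ∈ D ↔ chi n hn1 x = 1 := by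
    intro x
    rw [hD, Subgroup.mem_map_iff_mem hinj, MonoidHom.mem_ker]
  have hDn : ∀ s ∈ (S : Subgroup G), Cfsg.Agent.H12.cj D s = D := by
    intro s hs
    apply Cfsg.Agent.H12.cj_eq_of_le
    intro x hx
    rw [Cfsg.Agent.H12.mem_cj] at hx
    obtain ⟨a, rfl⟩ := hsurj s hs
    obtain ⟨d, hd, hdx⟩ := hx
    have hxe : x = ι (a⁻¹ * d * a) := by
      rw [map_mul, map_mul, map_inv, hdx]; group
    rw [hxe, hDmem, map_mul, map_mul, map_inv, MonoidHom.mem_ker.mp hd]
    simp
  refine ⟨Subgroup.closure ({z, ι (sr 0)} : Set G), Subgroup.closure ({z, ι (sr 1)} : Set G),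
    hK 0, hK 1, ?_, ?_⟩
  · rintro ⟨x, hx⟩
    have hcj : Cfsg.Agent.H12.cj (Subgroup.closure ({z, ι (sr 0)} : Set G)) x⁻¹ =
        Subgroup.closure ({z, ι (sr 1)} : Set G) := by
      unfold Cfsg.Agent.H12.cj
      rw [inv_inv]; exact hx
    have key := nc S e D hDn _ (hUS 0) x⁻¹ (by rw [hcj]; exact hUS 1) _ le_rfl (hK 0).card_four
    rw [hcj] at key
    have h0 : Subgroup.closure ({z, ι (sr 0)} : Set G) ≤ D := by
      rw [Subgroup.closure_le]
      intro y hy
      simp only [Set.mem_insert_iff, Set.mem_singleton_iff] at hy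
      rcases hy with rfl | rfl
      · rw [SetLike.mem_coe, hz, hDmem, chi_r, hh, ← QDR.two_qq hn, QDR.par_even]; rfl
      · rw [SetLike.mem_coe, hDmem, chi_sr, map_zero]; rfl
    have h1 := key.mp h0
    have h2 : ι (sr 1) ∈ D := h1 (Subgroup.subset_closure (by simp))
    rw [hDmem, chi_sr, map_one] at h2
    have h3 : (1 : ZMod 2) = 0 := Multiplicative.ofAdd.injective (h2.trans ofAdd_zero.symm)
    exact zmod_two_one_ne h3
  · intro V hV
    obtain ⟨y, hy⟩ := Cfsg.Agent.H12.exists_conj_le_sylow S (klein_isPGroup hV)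
    have hV' := klein_map_conj hV y
    set V' := V.map (MulAut.conj y).toMonoidHom with hV'def
    -- rotations in V'
    have hrot : ∀ i, ι (r i) ∈ V' → ι (r i) ≠ 1 → ι (r i) = z := by
      intro i hi hi1
      have h1 := klein_mul_self' hV' hi
      rw [← map_mul, r_mul_r, ← map_one ι] at h1
      have h2 := hinj h1
      rw [one_def] at h2
      injection h2 with h3
      rcases QDR.two_mul_eq_zero hn1 (i := i) (by rw [two_mul]; exact h3) with rfl | rfl
      · exact absurd (by rw [← one_def, map_one]) hi1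
      · rfl
    obtain ⟨a, b, ha, hb, ha1, hb1, hab⟩ := klein_exists_gens hV'
    obtain ⟨xa, rfl⟩ := hsurj a (hy ha)
    obtain ⟨xb, rfl⟩ := hsurj b (hy hb)
    have hex : z ∈ V' ∧ ∃ i, ι (sr i) ∈ V' := by
      rcases xa with i | i
      · have hiz := hrot i ha ha1
        rcases xb with j | j
        · exact absurd (hiz.trans (hrot j hb hb1).symm) hab
        · exact ⟨hiz ▸ ha, j, hb⟩
      · refine ⟨?_, i, ha⟩
        rcases xb with j | j
        · exact (hrot j hb hb1) ▸ hb
        · have hm := mul_mem ha hb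
          rw [← map_mul, sr_mul_sr] at hm
          have hne1 : ι (r (j - i)) ≠ 1 := by
            intro hc
            rw [← map_one ι] at hc
            have h2 := hinj hc
            rw [one_def] at h2
            injection h2 with h3
            apply hab
            rw [sub_eq_zero.mp h3]
          exact (hrot _ hm hne1) ▸ hm
    obtain ⟨hzV, i, hi⟩ := hex
    have hVe : V' = Subgroup.closure ({z, ι (sr i)} : Set G) :=
      klein_eq_closure hV' hzV hi hz1 (hs1 i) (hzne i)
    have hconj : ∀ k j : ZMod (2 ^ n), i = 2 * k + j →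
        V.map (MulAut.conj (ι (r k) * y)).toMonoidHom = Subgroup.closure ({z, ι (sr j)} : Set G) := by
      intro k j hk
      rw [map_conj_mul, ← hV'def, hVe, map_conj_closure_pair]
      have e1 : ι (r k) * z * (ι (r k))⁻¹ = z := by
        rw [hz, ← map_inv, ← map_mul, ← map_mul, inv_r, r_mul_r, r_mul_r]
        congr 2; ring
      have e2 : ι (r k) * ι (sr i) * (ι (r k))⁻¹ = ι (sr j) := by
        rw [← map_inv, ← map_mul, ← map_mul, inv_r, r_mul_sr, sr_mul_r, hk]
        congr 2; ring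
      rw [e1, e2]
    rcases QDR.even_or_odd i with ⟨k, hk⟩ | ⟨k, hk⟩
    · exact Or.inl ⟨_, hconj k 0 (by rw [hk, add_zero])⟩
    · exact Or.inr ⟨_, hconj k 1 hk⟩

theorem main (S : Sylow 2 G) (m : ℕ) (eS : (S : Subgroup G) ≃* DihedralGroup m) :
    (Nat.card S = 4 → ∀ U V : Subgroup G, IsKleinFour U → IsKleinFour V →
      (∃ x : G, U.map (MulAut.conj x).toMonoidHom = V)) ∧
    (4 < Nat.card S → ∃ U₁ U₂ : Subgroup G, IsKleinFour U₁ ∧ IsKleinFour U₂ ∧
      ¬ (∃ x : G, U₁.map (MulAut.conj x).toMonoidHom = U₂) ∧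
      ∀ V : Subgroup G, IsKleinFour V → (∃ x : G, V.map (MulAut.conj x).toMonoidHom = U₁) ∨
        (∃ x : G, V.map (MulAut.conj x).toMonoidHom = U₂)) := by
  haveI : Fact (Nat.Prime 2) := ⟨Nat.prime_two⟩
  refine ⟨fun h4 U V hU hV => part_one S h4 U V hU hV, ?_⟩
  intro h4
  obtain ⟨k, hk⟩ := (IsPGroup.iff_card.mp S.2)
  have hc : Nat.card (S : Subgroup G) = 2 * m := by
    rw [Nat.card_congr eS.toEquiv, DihedralGroup.nat_card]
  have hk3 : 3 ≤ k := by
    by_contra hlt
    have hk2 : k ≤ 2 := by omega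
    have : 2 ^ k ≤ 2 ^ 2 := Nat.pow_le_pow_right (by norm_num) hk2
    have h5 : 4 < 2 ^ k := by rw [← hk]; exact h4
    omega
  obtain ⟨n, rfl⟩ : ∃ n, k = n + 1 := ⟨k - 1, by omega⟩
  have hm : m = 2 ^ n := by
    rw [hc, pow_succ] at hk
    omega
  subst hm
  exact part_two S n (by omega) eS

end Cfsg.Agent.Lib.Helper8.DK
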