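import Mathlib
import Cfsg.Agent.S1003
import Cfsg.Agent.S0215
import Cfsg.Agent.Lib.Helper2.DihedralHom
import Cfsg.Agent.H14.Klein

/-!
# Sylow 2-subgroups of a simple group of order 168
-/

set_option autoImplicit false

namespace Cfsg.Agent.Lib.Helper8.O168

open Cfsg.Agent.H14

theorem lemA {H : Type*} [Group H] (h8 : Nat.card H = 8) {e x : H} (he : e * e = 1) (he1 : e ≠ 1)
    (hx : x * e * x⁻¹ ≠ e) : ∃ a b : H, a * a = 1 ∧ a ≠ 1 ∧ b * b = 1 ∧ b ≠ 1 ∧ a * b ≠ b * a := by
  obtain ⟨e', he'⟩ : ∃ e', e' = x * e * x⁻¹ := ⟨_, rfl⟩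
  have hne : e ≠ e' := by rw [he']; exact Ne.symm hx
  have he'2 : e' * e' = 1 := by
    rw [he']
    calc x * e * x⁻¹ * (x * e * x⁻¹) = x * (e * e) * x⁻¹ := by group
      _ = 1 := by rw [he]; group
  have he'1 : e' ≠ 1 := by
    intro h
    apply he1
    have : e = x⁻¹ * e' * x := by rw [he']; group
    rw [this, h]; group
  by_cases hc : e * e' = e' * e
  swap
  · exact ⟨e, e', he, he1, he'2, he'1, hc⟩
  have h4 := card_closure_four he he'2 hc he1 he'1 hne
  have hidx : (Subgroup.closure ({e, e'} : Set H)).index = 2 := by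
    have := (Subgroup.closure ({e, e'} : Set H)).card_mul_index
    rw [h4, h8] at this; omega
  have hw : x * x ∈ Subgroup.closure ({e, e'} : Set H) := Subgroup.mul_self_mem_of_index_two hidx x
  rcases (mem_closure_four he he'2 hc _).mp hw with h | h | h | h
  · refine ⟨x, e, h, ?_, he, he1, ?_⟩
    · rintro rfl; apply hx; simp
    · intro hxe; apply hx; rw [hxe]; group
  · exfalso; apply hx; rw [← h]; group
  · exfalso
    have h2 : x * x = e := by
      have : x * (x * x) = x * e := by
        calc x * (x * x) = (x * x) * x := by group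
          _ = x * e * x⁻¹ * x := by rw [h, he']
          _ = x * e := by group
      exact mul_left_cancel this
    apply hx; rw [← h2]; group
  · refine ⟨x * e, e, ?_, ?_, he, he1, ?_⟩
    · calc x * e * (x * e) = (x * e * x⁻¹) * (x * x) * e := by group
        _ = e' * (e * e') * e := by rw [h, he']
        _ = e' * (e' * e) * e := by rw [hc]
        _ = (e' * e') * (e * e) := by group
        _ = 1 := by rw [he'2, he, one_mul]
    · intro h1
      apply hx
      have : x = e⁻¹ := eq_inv_of_mul_eq_one_left h1
      rw [this]; group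
    · intro h1
      apply hx
      have h2 : (x * e) * e = (e * x) * e := by rw [h1]; group
      rw [mul_right_cancel h2]; group

theorem lemB {H : Type*} [Group H] (h8 : Nat.card H = 8) {u u' : H} (hu : u * u = 1) (hu1 : u ≠ 1)
    (hu' : u' * u' = 1) (hu'1 : u' ≠ 1) (hne : u ≠ u') (hc : ∀ y, y * u = u * y)
    (hc' : ∀ y, y * u' = u' * y) : ∀ y₁ y₂ : H, y₁ * y₂ = y₂ * y₁ := by
  have h4 := card_closure_four hu hu' (hc' u) hu1 hu'1 hne
  have hidx : (Subgroup.closure ({u, u'} : Set H)).index = 2 := by
    have := (Subgroup.closure ({u, u'} : Set H)).card_mul_index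
    rw [h4, h8] at this; omega
  have hV : ∀ v ∈ Subgroup.closure ({u, u'} : Set H), ∀ y, y * v = v * y := by
    intro v hv y
    rcases (mem_closure_four hu hu' (hc' u) v).mp hv with rfl | rfl | rfl | rfl
    · simp
    · exact hc y
    · exact hc' y
    · rw [← mul_assoc, hc y, mul_assoc, hc' y, mul_assoc]
  intro y₁ y₂
  by_cases h1 : y₁ ∈ Subgroup.closure ({u, u'} : Set H)
  · exact (hV y₁ h1 y₂).symm
  by_cases h2 : y₂ ∈ Subgroup.closure ({u, u'} : Set H)
  · exact hV y₂ h2 y₁
  have h3 : y₁⁻¹ * y₂ ∈ Subgroup.closure ({u, u'} : Set H) :=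
    (Subgroup.mul_mem_iff_of_index_two hidx).mpr (by simp [h1, h2])
  have := hV _ h3 y₁
  calc y₁ * y₂ = y₁ * (y₁ * (y₁⁻¹ * y₂)) := by group
    _ = y₁ * ((y₁⁻¹ * y₂) * y₁) := by rw [this]
    _ = y₂ * y₁ := by group

theorem lemC {H : Type*} [Group H] (h8 : Nat.card H = 8) {a b : H} (ha : a * a = 1) (ha1 : a ≠ 1)
    (hb : b * b = 1) (hb1 : b ≠ 1) (hab : a * b ≠ b * a) : Nonempty (H ≃* DihedralGroup 4) := by
  haveI : Fact (Nat.Prime 2) := ⟨Nat.prime_two⟩
  haveI : Finite H := Nat.finite_of_card_ne_zero (by rw [h8]; norm_num)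
  have hoa : orderOf a = 2 := orderOf_eq_prime (by rw [sq]; exact ha) ha1
  have hob : orderOf b = 2 := orderOf_eq_prime (by rw [sq]; exact hb) hb1
  obtain ⟨φ⟩ := Cfsg.Agent.Lib.Helper2.nonempty_closure_pair_mulEquiv_dihedral hoa hob
  have hcard : Nat.card (Subgroup.closure ({a, b} : Set H)) = 2 * orderOf (a * b) := by
    rw [Nat.card_congr φ.toEquiv, DihedralGroup.nat_card]
  have hdvd : Nat.card (Subgroup.closure ({a, b} : Set H)) ∣ 8 :=
    h8 ▸ Subgroup.card_subgroup_dvd_card _
  have h2 : ¬ orderOf (a * b) ∣ 2 := by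
    intro h
    have h3 : (a * b) ^ 2 = 1 := orderOf_dvd_iff_pow_eq_one.mp h
    apply hab
    have ia : a⁻¹ = a := inv_eq_of_mul_eq_one_left ha
    have ib : b⁻¹ = b := inv_eq_of_mul_eq_one_left hb
    have : (a * b)⁻¹ = a * b := inv_eq_of_mul_eq_one_left (by rw [← sq]; exact h3)
    rw [← this, mul_inv_rev, ia, ib]
  have ho : orderOf (a * b) = 4 := by
    have h1 : orderOf (a * b) ∣ 2 ^ 2 := by
      rw [hcard] at hdvd
      exact Nat.dvd_of_mul_dvd_mul_left (by norm_num : 0 < 2) (by simpa using hdvd)
    obtain ⟨k, hk, hk'⟩ := (Nat.dvd_prime_pow Nat.prime_two).mp h1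
    interval_cases k
    · exfalso; apply h2; rw [hk']; norm_num
    · exfalso; apply h2; rw [hk']; norm_num
    · rw [hk']; norm_num
  have hK : Subgroup.closure ({a, b} : Set H) = ⊤ :=
    Subgroup.eq_top_of_card_eq _ (by rw [hcard, ho, h8])
  rw [ho] at φ
  exact ⟨(Subgroup.topEquiv.symm.trans (MulEquiv.subgroupCongr hK.symm)).trans φ⟩

theorem sylow_card {G : Type*} [Group G] [Finite G] (h : Nat.card G = 168) {p : ℕ} [Fact p.Prime]
    (P : Sylow p G) (k m : ℕ) (hk : 168 = p ^ k * m) (hm : ¬ p ∣ m) : Nat.card P = p ^ k := by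
  have hp := (Fact.out : p.Prime)
  have hm0 : m ≠ 0 := by rintro rfl; exact hm (dvd_zero p)
  rw [P.card_eq_multiplicity, h, hk, Nat.factorization_mul (pow_ne_zero _ hp.ne_zero) hm0,
    Finsupp.add_apply, Nat.factorization_pow, Finsupp.smul_apply, hp.factorization_self,
    Nat.factorization_eq_zero_of_not_dvd hm]
  simp

/-- Burnside for a simple group. -/
theorem burnside {G : Type*} [Group G] [Finite G] [IsSimpleGroup G] {p : ℕ} [Fact p.Prime]
    (P : Sylow p G)
    (hP : Subgroup.normalizer ((P : Subgroup G) : Set G) ≤ Subgroup.centralizer (P : Set G)) :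
    Nat.card P = Nat.card G ∨ Nat.card P = 1 := by
  have hc := MonoidHom.ker_transferSylow_isComplement' P hP
  have hcard := hc.card_mul_card
  rcases (MonoidHom.normal_ker (MonoidHom.transferSylow P hP)).eq_bot_or_eq_top with h | h
  · left
    rw [h, Subgroup.card_bot, one_mul] at hcard
    exact hcard
  · right
    rw [h, Subgroup.card_top] at hcard
    have hpos : 0 < Nat.card G := Nat.card_pos
    exact Nat.eq_of_mul_eq_mul_left hpos (by rw [mul_one]; exact hcard)

theorem main {G : Type*} [Group G] [Finite G] [IsSimpleGroup G] (h : Nat.card G = 168)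
    (T : Sylow 2 G) :
    Nonempty (↥(T : Subgroup G) ≃* DihedralGroup 4) ∧
    Subgroup.normalizer ((T : Subgroup G) : Set G) = T ∧
    ∀ z : G, z ∈ (T : Subgroup G) → z ≠ 1 → (∀ t ∈ (T : Subgroup G), t * z = z * t) →
      Subgroup.centralizer ({z} : Set G) = T := by
  haveI : Fact (Nat.Prime 2) := ⟨Nat.prime_two⟩
  haveI : Fact (Nat.Prime 3) := ⟨Nat.prime_three⟩
  haveI : Fact (Nat.Prime 7) := ⟨by norm_num⟩
  obtain ⟨n2, n3, n7⟩ := Cfsg.Agent.S1003.result h
  have hT8 : Nat.card (T : Subgroup G) = 8 := by
    have := sylow_card h T 3 21 (by norm_num) (by norm_num)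
    simpa using this
  have hN : Subgroup.normalizer ((T : Subgroup G) : Set G) = T := by
    have h1 : Nat.card (Sylow 2 G) = (Subgroup.normalizer ((T : Subgroup G) : Set G)).index :=
      T.card_eq_index_normalizer
    have h2 := (Subgroup.normalizer ((T : Subgroup G) : Set G)).card_mul_index
    rw [← h1, n2, h] at h2
    have h3 : Nat.card (Subgroup.normalizer ((T : Subgroup G) : Set G)) = 8 := by omega
    exact (Subgroup.eq_of_le_of_card_ge Subgroup.le_normalizer (by rw [h3, hT8])).symm
  have hna : ¬ ∀ x y : (T : Subgroup G), x * y = y * x := by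
    intro hcomm
    have hP : Subgroup.normalizer ((T : Subgroup G) : Set G) ≤ Subgroup.centralizer (T : Set G) := by
      rw [hN]
      intro x hx
      rw [Subgroup.mem_centralizer_iff]
      intro y hy
      exact congrArg Subtype.val (hcomm ⟨y, hy⟩ ⟨x, hx⟩)
    rcases burnside T hP with h1 | h1
    · rw [hT8, h] at h1; omega
    · rw [hT8] at h1; omega
  refine ⟨?_, hN, ?_⟩
  · obtain ⟨u, hu⟩ := exists_prime_orderOf_dvd_card' (G := (T : Subgroup G)) 2 (by rw [hT8]; norm_num)
    have huG : orderOf (u : G) = 2 := by rw [Subgroup.orderOf_coe]; exact hu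
    have hZ : ∃ g : G, g * u * g⁻¹ ∈ (T : Subgroup G) ∧ g * (u : G) * g⁻¹ ≠ u := by
      by_contra hcon
      push Not at hcon
      obtain ⟨N, hNn, hNodd, hNc⟩ := Cfsg.Agent.S0215.result T (u : G) huG u.2 hcon
      rcases hNn.eq_bot_or_eq_top with hb | ht
      · apply hna
        have huc : (u : G) ∈ Subgroup.center G := by
          rw [Subgroup.mem_center_iff]
          intro g
          have := hNc g
          rw [hb, Subgroup.mem_bot] at this
          have h5 : (u : G) * g = g * u := by
            calc (u : G) * g = ((u : G) * g * (u : G)⁻¹ * g⁻¹) * (g * u) := by group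
              _ = g * u := by rw [this, one_mul]
          exact h5.symm
        rcases (inferInstance : (Subgroup.center G).Normal).eq_bot_or_eq_top with hb' | ht'
        · exfalso
          rw [hb', Subgroup.mem_bot] at huc
          rw [huc, orderOf_one] at huG; omega
        · intro x y
          have hx : (x : G) ∈ Subgroup.center G := by rw [ht']; trivial
          exact Subtype.ext ((Subgroup.mem_center_iff.mp hx y).symm)
      · rw [ht, Subgroup.card_top, h] at hNodd
        exact absurd hNodd (by decide)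
    obtain ⟨g, hgT, hgne⟩ := hZ
    obtain ⟨u', hu'⟩ : ∃ u' : (T : Subgroup G), (u' : G) = g * u * g⁻¹ := ⟨⟨_, hgT⟩, rfl⟩
    have huu : u * u = 1 := by
      have := pow_orderOf_eq_one u
      rw [hu, sq] at this
      exact this
    have hu1 : u ≠ 1 := by rintro rfl; rw [orderOf_one] at hu; omega
    have hu'u' : u' * u' = 1 := by
      apply Subtype.ext
      change (u' : G) * u' = 1
      rw [hu']
      have : (u : G) * u = 1 := congrArg Subtype.val huu
      calc g * u * g⁻¹ * (g * u * g⁻¹) = g * ((u : G) * u) * g⁻¹ := by group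
        _ = 1 := by rw [this]; group
    have hu'1 : u' ≠ 1 := by
      intro h1
      have h2 : g * (u : G) * g⁻¹ = 1 := by rw [← hu', h1]; rfl
      apply hu1
      apply Subtype.ext
      have : (u : G) = g⁻¹ * (g * u * g⁻¹) * g := by group
      rw [this, h2]; simp
    have hne : u ≠ u' := by
      intro h1
      apply hgne
      rw [← hu', ← h1]
    have hex : ∃ e x : (T : Subgroup G), e * e = 1 ∧ e ≠ 1 ∧ x * e * x⁻¹ ≠ e := by
      by_contra hcon
      push Not at hcon
      apply hna
      refine lemB hT8 huu hu1 hu'u' hu'1 hne ?_ ?_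
      · intro y
        have := hcon u y huu hu1
        calc y * u = (y * u * y⁻¹) * y := by group
          _ = u * y := by rw [this]
      · intro y
        have := hcon u' y hu'u' hu'1
        calc y * u' = (y * u' * y⁻¹) * y := by group
          _ = u' * y := by rw [this]
    obtain ⟨e, x, he, he1, hx⟩ := hex
    obtain ⟨a, b, ha, ha1, hb, hb1, hab⟩ := lemA hT8 he he1 hx
    exact lemC hT8 ha ha1 hb hb1 hab
  · intro z hz hz1 hzc
    have hTC : (T : Subgroup G) ≤ Subgroup.centralizer ({z} : Set G) := by
      intro t ht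
      rw [Subgroup.mem_centralizer_singleton_iff]
      first
        | exact hzc t ht
        | exact (hzc t ht).symm
    obtain ⟨k, hk⟩ := (IsPGroup.iff_orderOf.mp T.2) ⟨z, hz⟩
    have hoz : orderOf z = 2 ^ k := by rw [← hk]; exact (Subgroup.orderOf_mk z hz).symm
    have hk0 : k ≠ 0 := by
      rintro rfl
      rw [pow_zero, orderOf_eq_one_iff] at hoz
      exact hz1 hoz
    have h2z : 2 ∣ orderOf z := by rw [hoz]; exact dvd_pow_self 2 hk0
    have key : ∀ (p : ℕ) [Fact p.Prime] (m : ℕ), 168 = p ^ 1 * m → ¬ p ∣ m →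
        p ∣ Nat.card (Subgroup.centralizer ({z} : Set G)) →
        ∃ (P : Sylow p G) (y : G), orderOf y = p ∧ y * z = z * y ∧
          (P : Subgroup G) = Subgroup.zpowers y ∧
          z ∈ Subgroup.normalizer ((P : Subgroup G) : Set G) := by
      intro p _ m hm1 hm2 hdvd
      obtain ⟨y, hy⟩ := exists_prime_orderOf_dvd_card'
        (G := Subgroup.centralizer ({z} : Set G)) p hdvd
      have hyo : orderOf (y : G) = p := by rw [Subgroup.orderOf_coe]; exact hy
      have hyz : (y : G) * z = z * y := by
        have := Subgroup.mem_centralizer_singleton_iff.mp y.2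
        first
          | exact this
          | exact this.symm
      have hpg : IsPGroup p (Subgroup.zpowers (y : G)) :=
        IsPGroup.of_card (n := 1) (by rw [Nat.card_zpowers, hyo, pow_one])
      obtain ⟨P, hP⟩ := hpg.exists_le_sylow
      have hPc := sylow_card h P 1 m hm1 hm2
      have hPe : Subgroup.zpowers (y : G) = P :=
        Subgroup.eq_of_le_of_card_ge hP (by rw [hPc, Nat.card_zpowers, hyo, pow_one])
      refine ⟨P, y, hyo, hyz, hPe.symm, ?_⟩
      rw [← hPe, Subgroup.mem_normalizer_iff]
      intro w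
      have hcomm : ∀ w ∈ Subgroup.zpowers (y : G), z * w * z⁻¹ = w := by
        intro w hw
        obtain ⟨j, rfl⟩ := Subgroup.mem_zpowers_iff.mp hw
        have : Commute z ((y : G) ^ j) := Commute.zpow_right hyz.symm j
        rw [this.eq]; group
      constructor
      · intro hw; rw [hcomm w hw]; exact hw
      · intro hw
        have h7 : z * (z * w * z⁻¹) * z⁻¹ = z * w * z⁻¹ := hcomm _ hw
        have h8 : z * (z * w * z⁻¹) = z * w := mul_right_cancel h7
        have h6 : z * w * z⁻¹ = w := mul_left_cancel h8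
        rwa [h6] at hw
    have h7 : ¬ 7 ∣ Nat.card (Subgroup.centralizer ({z} : Set G)) := by
      intro hd
      obtain ⟨P, y, hyo, hyz, hPe, hzN⟩ := key 7 24 (by norm_num) (by norm_num) hd
      have h1 : Nat.card (Sylow 7 G) = (Subgroup.normalizer ((P : Subgroup G) : Set G)).index :=
        P.card_eq_index_normalizer
      have h2 := (Subgroup.normalizer ((P : Subgroup G) : Set G)).card_mul_index
      rw [← h1, n7, h] at h2
      have h3 : Nat.card (Subgroup.normalizer ((P : Subgroup G) : Set G)) = 21 := by omega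
      have h4 : orderOf z ∣ 21 := by
        rw [← h3]
        exact Subgroup.orderOf_dvd_natCard _ hzN
      have := h2z.trans h4
      omega
    have h3' : ¬ 3 ∣ Nat.card (Subgroup.centralizer ({z} : Set G)) := by
      intro hd
      obtain ⟨P, y, hyo, hyz, hPe, hzN⟩ := key 3 56 (by norm_num) (by norm_num) hd
      have h1 : Nat.card (Sylow 3 G) = (Subgroup.normalizer ((P : Subgroup G) : Set G)).index :=
        P.card_eq_index_normalizer
      have h2 := (Subgroup.normalizer ((P : Subgroup G) : Set G)).card_mul_index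
      rw [← h1, n3, h] at h2
      have h3 : Nat.card (Subgroup.normalizer ((P : Subgroup G) : Set G)) = 6 := by omega
      have h4 : orderOf z ∣ 6 := by
        rw [← h3]
        exact Subgroup.orderOf_dvd_natCard _ hzN
      have hz2 : orderOf z = 2 := by
        rcases k with _ | _ | k
        · exact absurd rfl hk0
        · simpa using hoz
        · exfalso
          have : 4 ∣ 6 := by
            refine dvd_trans ?_ h4
            rw [hoz]
            exact ⟨2 ^ k, by ring⟩
          omega
      have ho6 : orderOf (y * z) = 6 := by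
        have := (show Commute y z from hyz).orderOf_mul_eq_mul_orderOf_of_coprime
          (by rw [hyo, hz2]; norm_num)
        rw [this, hyo, hz2]
      have hyN : y ∈ Subgroup.normalizer ((P : Subgroup G) : Set G) :=
        Subgroup.le_normalizer (by rw [hPe]; exact Subgroup.mem_zpowers y)
      have hle : Subgroup.zpowers (y * z) ≤ Subgroup.normalizer ((P : Subgroup G) : Set G) := by
        rw [Subgroup.zpowers_le]; exact mul_mem hyN hzN
      have heq : Subgroup.zpowers (y * z) = Subgroup.normalizer ((P : Subgroup G) : Set G) :=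
        Subgroup.eq_of_le_of_card_ge hle (by rw [h3, Nat.card_zpowers, ho6])
      have hP : Subgroup.normalizer ((P : Subgroup G) : Set G) ≤
          Subgroup.centralizer (P : Set G) := by
        rw [← heq]
        intro w hw
        obtain ⟨j, rfl⟩ := Subgroup.mem_zpowers_iff.mp hw
        rw [Subgroup.mem_centralizer_iff]
        intro v hv
        have hv' : v ∈ Subgroup.zpowers y := by rw [← hPe]; exact hv
        obtain ⟨i, rfl⟩ := Subgroup.mem_zpowers_iff.mp hv'
        have hc1 : Commute y (y * z) := (Commute.refl y).mul_right hyz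
        exact ((hc1.zpow_left i).zpow_right j).eq
      have hPc := sylow_card h P 1 56 (by norm_num) (by norm_num)
      rcases burnside P hP with h5 | h5
      · rw [hPc, h] at h5; omega
      · rw [hPc] at h5; omega
    have hdC : Nat.card (Subgroup.centralizer ({z} : Set G)) ∣ 8 * 21 := by
      have := Subgroup.card_subgroup_dvd_card (Subgroup.centralizer ({z} : Set G))
      rw [h] at this
      exact this
    have hcop : Nat.Coprime (Nat.card (Subgroup.centralizer ({z} : Set G))) 21 := by
      have : (21 : ℕ) = 3 * 7 := by norm_num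
      rw [this]
      exact Nat.Coprime.mul_right
        (Nat.Coprime.symm ((Nat.Prime.coprime_iff_not_dvd Nat.prime_three).mpr h3'))
        (Nat.Coprime.symm ((Nat.Prime.coprime_iff_not_dvd (by norm_num)).mpr h7))
    have hC8 : Nat.card (Subgroup.centralizer ({z} : Set G)) ≤ 8 :=
      Nat.le_of_dvd (by norm_num) (hcop.dvd_of_dvd_mul_right hdC)
    exact (Subgroup.eq_of_le_of_card_ge hTC (by rw [hT8]; exact hC8)).symm

end Cfsg.Agent.Lib.Helper8.O168
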