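import Mathlib
import Cfsg.Agent.Lib.Helper8.O168
import Cfsg.Agent.Lib.Helper8.DK2
import Cfsg.Agent.Lib.Helper8.Isolated
import Cfsg.Agent.Lib.Helper8.Klein
import Cfsg.Agent.Lib.Helper8.PRank
import Cfsg.Agent.S1255
import Cfsg.Agent.S1012

/-!
# Four-subgroups of a simple group of order 168
-/

set_option autoImplicit false

namespace Cfsg.Agent.Lib.Helper8.O168

open Cfsg.Agent.H14 DihedralGroup

theorem le_normalizer_of_card {G : Type*} [Group G] [Finite G] {U K : Subgroup G} (hUK : U ≤ K)
    (hU : Nat.card U = 4) (hK : Nat.card K = 8) : K ≤ Subgroup.normalizer (U : Set G) := by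
  haveI : Fact (Nat.Prime 2) := ⟨Nat.prime_two⟩
  have hKp : IsPGroup 2 K := IsPGroup.of_card (n := 3) (by rw [hK]; norm_num)
  have hlt : U < K := lt_of_le_of_ne hUK (by rintro rfl; omega)
  have h1 := Cfsg.Agent.H12.lt_inf_normalizer hKp hlt
  have h2 : Nat.card U < Nat.card (K ⊓ Subgroup.normalizer (U : Set G) : Subgroup G) := by
    refine lt_of_le_of_ne (Subgroup.card_le_of_le h1.le) ?_
    intro h; exact h1.ne (Cfsg.Agent.H12.eq_of_le_of_card_eq h1.le h)
  have h3 : Nat.card (K ⊓ Subgroup.normalizer (U : Set G) : Subgroup G) ∣ 8 :=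
    hK ▸ Subgroup.card_dvd_of_le inf_le_left
  have h4 : Nat.card (K ⊓ Subgroup.normalizer (U : Set G) : Subgroup G) = 8 := by
    have h5 := Nat.le_of_dvd (by norm_num) h3
    rw [hU] at h2
    generalize Nat.card (K ⊓ Subgroup.normalizer (U : Set G) : Subgroup G) = c at *
    interval_cases c <;> omega
  have h5 : K ⊓ Subgroup.normalizer (U : Set G) = K :=
    Cfsg.Agent.H12.eq_of_le_of_card_eq inf_le_left (by rw [h4, hK])
  exact inf_eq_left.mp h5

theorem relIndex_dvd {G : Type*} [Group G] [Finite G] {U : Subgroup G} (hU : IsKleinFour U) :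
    (Subgroup.centralizer (U : Set G)).relIndex (Subgroup.normalizer (U : Set G)) ∣ 24 := by
  classical
  let ψ : Subgroup.normalizer (U : Set G) →* MulAut U := U.normalizerMonoidHom
  have hker : ψ.ker = (Subgroup.centralizer (U : Set G)).subgroupOf (Subgroup.normalizer (U : Set G)) :=
    Subgroup.normalizerMonoidHom_ker U
  haveI hn : ((Subgroup.centralizer (U : Set G)).subgroupOf (Subgroup.normalizer (U : Set G))).Normal :=
    hker ▸ MonoidHom.normal_ker ψ
  have hinj := QuotientGroup.kerLift_injective ψ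
  have e := QuotientGroup.quotientMulEquivOfEq hker
  have hinj2 : Function.Injective ((MulAut.toPerm U).comp (QuotientGroup.kerLift ψ)) := by
    intro a b hab
    apply hinj
    exact MulEquiv.toEquiv_injective hab
  have h1 := Subgroup.card_dvd_of_injective _ hinj2
  haveI : Fintype U := Fintype.ofFinite U
  rw [Nat.card_congr e.toEquiv, Nat.card_eq_fintype_card (α := Equiv.Perm U),
    Fintype.card_perm, IsKleinFour.card_four'] at h1
  exact h1

section

variable {G : Type*} [Group G] [Finite G] [IsSimpleGroup G]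

theorem card8 (h : Nat.card G = 168) (T : Sylow 2 G) : Nat.card (T : Subgroup G) = 8 := by
  haveI : Fact (Nat.Prime 2) := ⟨Nat.prime_two⟩
  have := sylow_card h T 3 21 (by norm_num) (by norm_num)
  simpa using this

theorem not_comm (h : Nat.card G = 168) (T : Sylow 2 G) :
    ¬ ∀ x y : (T : Subgroup G), x * y = y * x := by
  haveI : Fact (Nat.Prime 2) := ⟨Nat.prime_two⟩
  have hN := (main h T).2.1
  have hT8 := card8 h T
  intro hcomm
  have hP : Subgroup.normalizer ((T : Subgroup G) : Set G) ≤ Subgroup.centralizer (T : Set G) := by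
    rw [hN]
    intro x hx
    rw [Subgroup.mem_centralizer_iff]
    intro y hy
    exact congrArg Subtype.val (hcomm ⟨y, hy⟩ ⟨x, hx⟩)
  rcases burnside T hP with h1 | h1
  · rw [hT8, h] at h1; omega
  · rw [hT8] at h1; omega

theorem not_iso_in (h : Nat.card G = 168) (T : Sylow 2 G) (u : G) (huT : u ∈ (T : Subgroup G))
    (huG : orderOf u = 2) : ∃ g : G, g * u * g⁻¹ ∈ (T : Subgroup G) ∧ g * u * g⁻¹ ≠ u := by
  by_contra hcon
  push Not at hcon
  obtain ⟨N, hNn, hNodd, hNc⟩ := Cfsg.Agent.S0215.result T u huG huT hcon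
  rcases hNn.eq_bot_or_eq_top with hb | ht
  · apply not_comm h T
    have huc : u ∈ Subgroup.center G := by
      rw [Subgroup.mem_center_iff]
      intro g
      have := hNc g
      rw [hb, Subgroup.mem_bot] at this
      have h5 : u * g = g * u := by
        calc u * g = (u * g * u⁻¹ * g⁻¹) * (g * u) := by group
          _ = g * u := by rw [this, one_mul]
      exact h5.symm
    rcases (inferInstance : (Subgroup.center G).Normal).eq_bot_or_eq_top with hb' | ht'
    · exfalso
      rw [hb', Subgroup.mem_bot] at huc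
      rw [huc, orderOf_one] at huG; omega
    · intro x y
      have hx : (x : G) ∈ Subgroup.center G := by rw [ht']; trivial
      exact Subtype.ext ((Subgroup.mem_center_iff.mp hx y).symm)
  · rw [ht, Subgroup.card_top, h] at hNodd
    exact absurd hNodd (by decide)

theorem not_isolated (h : Nat.card G = 168) (t : G) : ¬ Cfsg.IsIsolatedInvolution t := by
  haveI : Fact (Nat.Prime 2) := ⟨Nat.prime_two⟩
  intro ht
  have hpg : IsPGroup 2 (Subgroup.zpowers t) :=
    IsPGroup.of_card (n := 1) (by rw [Nat.card_zpowers, ht.1, pow_one])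
  obtain ⟨T, hT⟩ := hpg.exists_le_sylow
  have htT : t ∈ (T : Subgroup G) := hT (Subgroup.mem_zpowers t)
  obtain ⟨g, hgT, hgne⟩ := not_iso_in h T t htT ht.1
  have hodd := IsIso.odd_mul_conj ht g
  obtain ⟨k, hk⟩ := (IsPGroup.iff_orderOf.mp T.2) ⟨t * (g * t * g⁻¹), mul_mem htT hgT⟩
  rw [Subgroup.orderOf_mk] at hk
  rw [hk] at hodd
  have hk0 : k = 0 := by
    by_contra hk0
    exact (Nat.not_even_iff_odd.mpr hodd) ((Nat.even_pow.mpr ⟨even_two, hk0⟩))
  rw [hk0, pow_zero, orderOf_eq_one_iff] at hk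
  apply hgne
  have h1 : g * t * g⁻¹ = t⁻¹ := (inv_eq_of_mul_eq_one_right hk).symm
  rw [h1, IsIso.inv ht]

theorem no_six (h : Nat.card G = 168) (w : G) : orderOf w ≠ 6 := by
  haveI : Fact (Nat.Prime 3) := ⟨Nat.prime_three⟩
  intro hw
  obtain ⟨-, n3, -⟩ := Cfsg.Agent.S1003.result h
  have hyo : orderOf (w ^ 2) = 3 := by
    rw [orderOf_pow_of_dvd (by norm_num) (by rw [hw]; norm_num), hw]
  have hpg : IsPGroup 3 (Subgroup.zpowers (w ^ 2)) :=
    IsPGroup.of_card (n := 1) (by rw [Nat.card_zpowers, hyo, pow_one])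
  obtain ⟨P, hP⟩ := hpg.exists_le_sylow
  have hPc := sylow_card h P 1 56 (by norm_num) (by norm_num)
  have hPe : Subgroup.zpowers (w ^ 2) = P :=
    Subgroup.eq_of_le_of_card_ge hP (by rw [hPc, Nat.card_zpowers, hyo, pow_one])
  have h1 : Nat.card (Sylow 3 G) = (Subgroup.normalizer ((P : Subgroup G) : Set G)).index :=
    P.card_eq_index_normalizer
  have h2 := (Subgroup.normalizer ((P : Subgroup G) : Set G)).card_mul_index
  rw [← h1, n3, h] at h2
  have h3 : Nat.card (Subgroup.normalizer ((P : Subgroup G) : Set G)) = 6 := by omega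
  have hwN : w ∈ Subgroup.normalizer ((P : Subgroup G) : Set G) := by
    rw [← hPe, Subgroup.mem_normalizer_iff]
    intro v
    have hcomm : ∀ v ∈ Subgroup.zpowers (w ^ 2), w * v * w⁻¹ = v := by
      intro v hv
      obtain ⟨j, rfl⟩ := Subgroup.mem_zpowers_iff.mp hv
      have : Commute w ((w ^ 2) ^ j) := ((Commute.refl w).pow_right 2).zpow_right j
      rw [this.eq, mul_inv_cancel_right]
    constructor
    · intro hv; rw [hcomm v hv]; exact hv
    · intro hv
      have h7 : w * (w * v * w⁻¹) * w⁻¹ = w * v * w⁻¹ := hcomm _ hv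
      have h8 : w * (w * v * w⁻¹) = w * v := mul_right_cancel h7
      have h6 : w * v * w⁻¹ = v := mul_left_cancel h8
      rwa [h6] at hv
  have hle : Subgroup.zpowers w ≤ Subgroup.normalizer ((P : Subgroup G) : Set G) := by
    rw [Subgroup.zpowers_le]; exact hwN
  have heq : Subgroup.zpowers w = Subgroup.normalizer ((P : Subgroup G) : Set G) :=
    Subgroup.eq_of_le_of_card_ge hle (by rw [h3, Nat.card_zpowers, hw])
  have hPC : Subgroup.normalizer ((P : Subgroup G) : Set G) ≤ Subgroup.centralizer (P : Set G) := by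
    rw [← heq]
    intro x hx
    obtain ⟨j, rfl⟩ := Subgroup.mem_zpowers_iff.mp hx
    rw [Subgroup.mem_centralizer_iff]
    intro v hv
    have hv' : v ∈ Subgroup.zpowers (w ^ 2) := by rw [hPe]; exact hv
    obtain ⟨i, rfl⟩ := Subgroup.mem_zpowers_iff.mp hv'
    exact ((((Commute.refl w).pow_left 2).zpow_left i).zpow_right j).eq
  rcases burnside P hPC with h5 | h5
  · rw [hPc, h] at h5; omega
  · rw [hPc] at h5; omega

end

end Cfsg.Agent.Lib.Helper8.O168
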