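import Mathlib
import Cfsg.Agent.S4511
import Cfsg.Agent.S0936
import Cfsg.Agent.H6.IndDefined
import Cfsg.Agent.BlockLib.KG.EquivTr
import Cfsg.Agent.BlockLib.KG.Principal

/-!
# Transport of the rank of the principal block along isomorphisms, and Brauer's count of the
characters of the principal block
-/

set_option autoImplicit false

namespace Cfsg.Agent.Lib.Helper8.BQ

open Cfsg Cfsg.Agent.CharLib Cfsg.Agent.BlockLib

universe u

section transport

variable {M : Ideal AlgInt} {K K' : Type u} [Group K] [Group K'] (α : K ≃* K')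

theorem principalBlock_equiv :
    principalBlock M K' = mapIrr α '' principalBlock M K := by
  ext ψ
  constructor
  · intro h
    refine ⟨mapIrr α.symm ψ, ?_, mapIrr_mapIrr_symm α ψ⟩
    have h1 : SameBlock M (fun x : K' => (fun _ : K => (1 : ℂ)) (α.symm x))
        (fun x : K' => (mapIrr α.symm ψ : K → ℂ) (α.symm x)) := by
      have e : (fun x : K' => (mapIrr α.symm ψ : K → ℂ) (α.symm x)) = (ψ : K' → ℂ) := by
        funext x
        simp
      rw [e]
      exact h
    exact (sameBlock_equiv α).mp h1
  · rintro ⟨φ, hφ, rfl⟩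
    exact (sameBlock_equiv α (χ := fun _ => (1 : ℂ))).mpr hφ

theorem pRegularPart_equiv (p : ℕ) (χ : K → ℂ) :
    pRegularPart p (fun x : K' => χ (α.symm x)) = fun x : K' => pRegularPart p χ (α.symm x) := by
  funext x
  simp only [pRegularPart, IsPRegular, MulEquiv.orderOf_eq]
  congr

theorem blockRank_equiv (p : ℕ) (B : Set (IrrCharacter K)) :
    blockRank p (mapIrr α '' B) = blockRank p B := by
  unfold blockRank
  have e : (fun χ : IrrCharacter K' => pRegularPart p (χ : K' → ℂ)) '' (mapIrr α '' B) =
      (LinearEquiv.funCongrLeft ℂ ℂ α.symm.toEquiv) ''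
        ((fun χ : IrrCharacter K => pRegularPart p (χ : K → ℂ)) '' B) := by
    rw [Set.image_image, Set.image_image]
    apply Set.image_congr
    intro χ _
    exact pRegularPart_equiv α p χ
  rw [e]
  have e2 := Submodule.map_span (LinearEquiv.funCongrLeft ℂ ℂ α.symm.toEquiv).toLinearMap
    ((fun χ : IrrCharacter K => pRegularPart p (χ : K → ℂ)) '' B)
  have e3 : Submodule.span ℂ ((LinearEquiv.funCongrLeft ℂ ℂ α.symm.toEquiv) ''
        ((fun χ : IrrCharacter K => pRegularPart p (χ : K → ℂ)) '' B)) =
      (Submodule.span ℂ ((fun χ : IrrCharacter K => pRegularPart p (χ : K → ℂ)) '' B)).map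
        (LinearEquiv.funCongrLeft ℂ ℂ α.symm.toEquiv).toLinearMap := e2.symm
  rw [e3]
  exact LinearEquiv.finrank_map_eq _ _

include α in
theorem blockRank_principalBlock_equiv (p : ℕ) :
    blockRank p (principalBlock M K') = blockRank p (principalBlock M K) := by
  rw [principalBlock_equiv α, blockRank_equiv]

end transport

variable {G : Type u} [Group G] [Finite G]

theorem blockRank_principalBlock_of_eq_top {M : Ideal AlgInt} (p : ℕ) {H : Subgroup G}
    (h : H = ⊤) : blockRank p (principalBlock M H) = blockRank p (principalBlock M G) :=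
  blockRank_principalBlock_equiv (M := M) ((MulEquiv.subgroupCongr h).trans Subgroup.topEquiv).symm p

/-- the blocks of `C_G(x)` inducing the principal block -/
theorem induced_principal {p : ℕ} [Fact p.Prime] {M : Ideal AlgInt} (hM : IsPModular p M) {x : G}
    {k : ℕ} (hx : orderOf x = p ^ k) :
    {b : Set (IrrCharacter ↥(Subgroup.centralizer ({x} : Set G))) |
      IsInducedBlock M (Subgroup.centralizer ({x} : Set G)) b (principalBlock M G)} =
      {principalBlock M ↥(Subgroup.centralizer ({x} : Set G))} := by
  ext b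
  simp only [Set.mem_ofPred_eq, Set.mem_singleton_iff]
  constructor
  · intro h
    exact (Cfsg.Agent.S0936.result p M hM _ b ⟨_, h⟩).mp h
  · rintro rfl
    exact (Cfsg.Agent.S0936.result p M hM _ _
      (Cfsg.Agent.H6.IndBlk.inducedBlockDefined_centralizer hM hx isPBlock_principalBlock)).mpr rfl

/-- Brauer's count for the principal block. -/
theorem card_principalBlock {p : ℕ} [Fact p.Prime] {M : Ideal AlgInt} (hM : IsPModular p M)
    (X : Finset G) (hX : ∀ x ∈ X, ∃ k : ℕ, orderOf x = p ^ k)
    (hXrep : ∀ g : G, (∃ k : ℕ, orderOf g = p ^ k) → ∃! x, x ∈ X ∧ IsConj g x) :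
    Nat.card (principalBlock M G) =
      ∑ x ∈ X, blockRank p (principalBlock M ↥(Subgroup.centralizer ({x} : Set G))) := by
  rw [Cfsg.Agent.S4511.result p M hM _ isPBlock_principalBlock X hX hXrep]
  apply Finset.sum_congr rfl
  intro x hx
  obtain ⟨k, hk⟩ := hX x hx
  rw [induced_principal hM hk, finsum_mem_singleton]

end Cfsg.Agent.Lib.Helper8.BQ
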