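import Mathlib
import Cfsg.Agent.Lib.Helper8.ZS10
import Cfsg.Agent.H20.PGroup

/-!
# Group theory of groups with a quaternion Sylow 2-subgroup of order 8 and trivial odd core
-/

set_option autoImplicit false

namespace Cfsg.Agent.Lib.Helper8.BQ

open Cfsg Cfsg.H9 Cfsg.Agent.Lib.Helper8.ZS

universe u

variable {G : Type u} [Group G] [Finite G] {S : Sylow 2 G} {t : G}

/-- proper subgroups of a quaternion Sylow subgroup are cyclic -/
theorem isCyclic_of_lt (D : Q8Syl S t) {H : Subgroup G} (hH : H ≤ (S : Subgroup G))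
    (hne : H ≠ (S : Subgroup G)) : IsCyclic H := by
  by_cases hex : ∃ s ∈ H, s ^ 2 ≠ 1
  · obtain ⟨s, hs, hs2⟩ := hex
    have ho : orderOf s = 4 := orderOf_four_of (D.pow4 (hH hs)) hs2
    have h1 : Nat.card H ∣ 8 := by
      rw [← D.card]; exact Subgroup.card_dvd_of_le hH
    have h2 : 4 ∣ Nat.card H := by
      have := orderOf_dvd_natCard (⟨s, hs⟩ : H)
      rwa [Subgroup.orderOf_mk, ho] at this
    have h3 : Nat.card H ≠ 8 := by
      intro h8
      apply hne
      apply Subgroup.eq_of_le_of_card_ge hH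
      rw [h8]; exact D.card.le
    have h4 : Nat.card H = 4 := by
      have hle : Nat.card H ≤ 8 := Nat.le_of_dvd (by norm_num) h1
      obtain ⟨c, hc⟩ := h2
      have : c = 1 ∨ c = 2 := by
        have : c ≠ 0 := by rintro rfl; simp at hc; exact (Nat.card_pos (α := H)).ne' hc
        omega
      rcases this with rfl | rfl
      · omega
      · omega
    apply isCyclic_of_orderOf_eq_card (⟨s, hs⟩ : H)
    rw [Subgroup.orderOf_mk, ho, h4]
  · push Not at hex
    have hle : H ≤ Subgroup.zpowers t := by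
      intro s hs
      rcases D.invol s (hH hs) (hex s hs) with rfl | rfl
      · exact Subgroup.one_mem _
      · exact Subgroup.mem_zpowers _
    exact isCyclic_of_injective (Subgroup.inclusion hle) (Subgroup.inclusion_injective hle)

/-- no normal subgroup of index two -/
theorem no_index_two (D : Q8Syl S t) (hcore : pPrimeCore 2 G = ⊥) (hG : (S : Subgroup G) ≠ ⊤) :
    ∀ N : Subgroup G, N.Normal → N.index ≠ 2 := by
  intro N hN hidx
  have : Fact (Nat.Prime 2) := ⟨Nat.prime_two⟩
  obtain ⟨P, hP⟩ := Cfsg.Agent.H20.exists_sylow_inf_normal S N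
  have hne : (S : Subgroup G) ⊓ N ≠ (S : Subgroup G) := by
    intro h
    have hle : (S : Subgroup G) ≤ N := inf_eq_left.mp h
    have := Subgroup.index_dvd_of_le hle
    rw [hidx] at this
    exact S.not_dvd_index this
  have hcyc : IsCyclic ((S : Subgroup G) ⊓ N : Subgroup G) := isCyclic_of_lt D inf_le_left hne
  have e : (P : Subgroup N) ≃* ((S : Subgroup G) ⊓ N : Subgroup G) := by
    rw [hP, ← Subgroup.inf_subgroupOf_right]
    exact Subgroup.subgroupOfEquivOfLe inf_le_right
  have hPc : IsCyclic P := isCyclic_of_injective e.toMonoidHom e.injective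
  have hcardG : Nat.card N * 2 = Nat.card G := by
    rw [← hidx]; exact Subgroup.card_mul_index N
  have h8 : 8 ∣ Nat.card G := by
    rw [← D.card]; exact Subgroup.card_subgroup_dvd_card _
  have heven : 2 ∣ Nat.card N := by omega
  have h1 := (cyc_core P hPc heven).2
  have hN0 : pPrimeCore 2 N = ⊥ := by
    have h2 := map_pPrimeCore_subnormal (p := 2) (K := N) hN.isSubnormal
    rw [hcore, bot_inf_eq] at h2
    exact (Subgroup.map_eq_bot_iff_of_injective _ N.subtype_injective).mp h2
  rw [hN0, Subgroup.card_bot, one_mul, Nat.card_congr e.toEquiv] at h1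
  have h3 : Nat.card ((S : Subgroup G) ⊓ N : Subgroup G) ∣ 8 := by
    rw [← D.card]; exact Subgroup.card_dvd_of_le inf_le_left
  have h4 : Nat.card ((S : Subgroup G) ⊓ N : Subgroup G) ≠ 8 := by
    intro h8'
    apply hne
    apply Subgroup.eq_of_le_of_card_ge inf_le_left
    rw [h8']; exact D.card.le
  have h5 : Nat.card ((S : Subgroup G) ⊓ N : Subgroup G) ≤ 4 := by
    obtain ⟨c, hc⟩ := h3
    have hpos : 0 < Nat.card ((S : Subgroup G) ⊓ N : Subgroup G) := Nat.card_pos
    have hc1 : c ≠ 1 := by rintro rfl; omega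
    have hc0 : c ≠ 0 := by rintro rfl; omega
    have hc2 : 2 ≤ c := by omega
    by_contra hlt
    push Not at hlt
    have : 5 * 2 ≤ Nat.card ((S : Subgroup G) ⊓ N : Subgroup G) * c := Nat.mul_le_mul hlt hc2
    omega
  apply hG
  apply Subgroup.eq_top_of_card_eq
  have h6 : Nat.card G ≤ 8 := by omega
  have h7 : 8 ≤ Nat.card G := Nat.le_of_dvd Nat.card_pos h8
  have := D.card
  show Nat.card (S : Subgroup G) = Nat.card G
  omega

theorem orderOf_conj' (c g : G) : orderOf (c * g * c⁻¹) = orderOf g :=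
  (MulAut.conj c).orderOf_eq g

/-- Brauer--Suzuki: the involution is central -/
theorem t_central (D : Q8Syl S t) (hcore : pPrimeCore 2 G = ⊥) (g : G) : g * t = t * g := by
  have hiso : ∀ g : G, g * t * g⁻¹ ∈ S → g * t * g⁻¹ = t := by
    intro g hg
    have h2 : (g * t * g⁻¹) ^ 2 = 1 := by
      rw [_root_.conj_pow, D.t_sq]; group
    rcases D.invol _ hg h2 with h | h
    · exfalso
      apply D.t_ne
      have : g⁻¹ * (g * t * g⁻¹) * g = 1 := by rw [h]; group
      rw [← this]; group
    · exact h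
  have hI := iso_of_sylow S t D.orderOf_t hiso
  have h1 := zstar hI g
  rw [hcore, Subgroup.mem_bot] at h1
  have h2 : t * g = g * t := by
    have := congrArg (· * g * t) h1
    simpa [mul_assoc] using this
  exact h2.symm

theorem invol_eq (D : Q8Syl S t) (hc : ∀ g : G, g * t = t * g) {x : G} (hx : orderOf x = 2) :
    x = t := by
  obtain ⟨g, hg⟩ := exists_conj_mem_sylow S (k := 1) (t := x) (by simpa using hx)
  have h2 : (g * x * g⁻¹) ^ 2 = 1 := by
    rw [_root_.conj_pow, ← hx, pow_orderOf_eq_one]; group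
  rcases D.invol _ hg h2 with h | h
  · exfalso
    have : x = 1 := by
      have : g⁻¹ * (g * x * g⁻¹) * g = 1 := by rw [h]; group
      rw [← this]; group
    rw [this, orderOf_one] at hx
    omega
  · have : x = g⁻¹ * (g * x * g⁻¹) * g := by group
    rw [this, h, mul_assoc, ← hc g, inv_mul_cancel_left]

theorem exists_order_four (D : Q8Syl S t) : ∃ v ∈ S, orderOf v = 4 := by
  by_contra hcon
  push Not at hcon
  have hle : (S : Subgroup G) ≤ Subgroup.zpowers t := by
    intro s hs
    have h2 : s ^ 2 = 1 := by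
      by_contra h2
      exact hcon s hs (orderOf_four_of (D.pow4 hs) h2)
    rcases D.invol s hs h2 with rfl | rfl
    · exact Subgroup.one_mem _
    · exact Subgroup.mem_zpowers _
  have := Subgroup.card_dvd_of_le hle
  rw [Nat.card_zpowers, D.orderOf_t] at this
  have h8 : Nat.card (S : Subgroup G) = 8 := D.card
  rw [h8] at this
  omega

theorem two_elt_cases (D : Q8Syl S t) {g : G} {k : ℕ} (hg : orderOf g = 2 ^ k) :
    orderOf g = 1 ∨ orderOf g = 2 ∨ orderOf g = 4 := by
  have h4 := orderOf_dvd_of_pow_eq_one (D.pow4_of_two_elt hg)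
  obtain ⟨j, hj, hj2⟩ := (Nat.dvd_prime_pow (m := 2) Nat.prime_two).mp (by simpa using h4)
  interval_cases j
  · left; simpa using hj2
  · right; left; simpa using hj2
  · right; right; simpa using hj2

open Classical in
/-- representatives of the classes of `2`-elements -/
theorem reps (D : Q8Syl S t) (hcore : pPrimeCore 2 G = ⊥) (hG : (S : Subgroup G) ≠ ⊤) {v : G}
    (hv : orderOf v = 4) (g : G) (hg : ∃ k : ℕ, orderOf g = 2 ^ k) :
    ∃! x, x ∈ ({1, t, v} : Finset G) ∧ IsConj g x := by
  obtain ⟨k, hk⟩ := hg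
  have hc := t_central D hcore
  have huniq : ∀ x y : G, x ∈ ({1, t, v} : Finset G) → y ∈ ({1, t, v} : Finset G) →
      orderOf x = orderOf y → x = y := by
    intro x y hx hy hxy
    simp only [Finset.mem_insert, Finset.mem_singleton] at hx hy
    have ht := D.orderOf_t
    rcases hx with rfl | rfl | rfl <;> rcases hy with rfl | rfl | rfl <;>
      first
        | rfl
        | (exfalso; simp only [orderOf_one] at hxy; omega)
        | (exfalso; omega)
  have hord : ∀ x : G, IsConj g x → orderOf x = orderOf g := by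
    intro x hx
    obtain ⟨c, rfl⟩ := isConj_iff.mp hx
    exact orderOf_conj' c g
  have hex : ∃ x, x ∈ ({1, t, v} : Finset G) ∧ IsConj g x := by
    rcases two_elt_cases D hk with h | h | h
    · refine ⟨1, by simp, ?_⟩
      rw [orderOf_eq_one_iff.mp h]
    · refine ⟨t, by simp, ?_⟩
      rw [invol_eq D hc h]
    · exact ⟨v, by simp, D.isConj_of_orderOf_four (no_index_two D hcore hG) h hv⟩
  obtain ⟨x, hx, hgx⟩ := hex
  refine ⟨x, ⟨hx, hgx⟩, ?_⟩
  rintro y ⟨hy, hgy⟩
  exact huniq y x hy hx ((hord y hgy).trans (hord x hgx).symm)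

theorem normal_zpowers (hc : ∀ g : G, g * t = t * g) : (Subgroup.zpowers t).Normal := by
  constructor
  intro x hx g
  obtain ⟨j, rfl⟩ := Subgroup.mem_zpowers_iff.mp hx
  have hcg : Commute g t := hc g
  have : g * t ^ j * g⁻¹ = t ^ j := by
    rw [(hcg.zpow_right j).eq, mul_inv_cancel_right]
  rw [this]; exact hx

theorem mem_zpowers_t (D : Q8Syl S t) {x : G} (hx : x ∈ Subgroup.zpowers t) : x = 1 ∨ x = t := by
  have hxS : x ∈ S := (Subgroup.zpowers_le.mpr D.t_mem) hx
  apply D.invol x hxS
  obtain ⟨j, rfl⟩ := Subgroup.mem_zpowers_iff.mp hx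
  rw [← zpow_natCast, ← zpow_mul, mul_comm, zpow_mul, zpow_natCast, D.t_sq, one_zpow]

/-- the Sylow 2-subgroup of the central quotient is a four-group -/
theorem quot_sylow (D : Q8Syl S t) [hn : (Subgroup.zpowers t).Normal] :
    ∃ P : Sylow 2 (G ⧸ Subgroup.zpowers t), Nat.card P = 4 ∧ ∀ x : P, x * x = 1 := by
  have : Fact (Nat.Prime 2) := ⟨Nat.prime_two⟩
  refine ⟨S.mapSurjective (QuotientGroup.mk'_surjective (Subgroup.zpowers t)), ?_, ?_⟩
  · have hco : ((S : Subgroup G).map (QuotientGroup.mk' (Subgroup.zpowers t))).comap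
        (QuotientGroup.mk' (Subgroup.zpowers t)) = (S : Subgroup G) := by
      rw [Subgroup.comap_map_eq, QuotientGroup.ker_mk']
      exact sup_eq_left.mpr (Subgroup.zpowers_le.mpr D.t_mem)
    have hidx : ((S : Subgroup G).map (QuotientGroup.mk' (Subgroup.zpowers t))).index =
        (S : Subgroup G).index := by
      rw [← Subgroup.index_comap_of_surjective _ (QuotientGroup.mk'_surjective _), hco]
    have h1 := Subgroup.card_mul_index ((S : Subgroup G).map (QuotientGroup.mk' (Subgroup.zpowers t)))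
    have h2 := Subgroup.card_mul_index (S : Subgroup G)
    have h3 := Subgroup.card_eq_card_quotient_mul_card_subgroup (Subgroup.zpowers t)
    rw [Nat.card_zpowers, D.orderOf_t] at h3
    rw [hidx] at h1
    have h8 : Nat.card (S : Subgroup G) = 8 := D.card
    rw [h8] at h2
    have hpos : 0 < (S : Subgroup G).index := Nat.pos_of_ne_zero Subgroup.index_ne_zero_of_finite
    show Nat.card ((S : Subgroup G).map (QuotientGroup.mk' (Subgroup.zpowers t))) = 4
    have h4 : Nat.card ((S : Subgroup G).map (QuotientGroup.mk' (Subgroup.zpowers t))) * 2 *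
        (S : Subgroup G).index = 8 * (S : Subgroup G).index := by
      rw [h2, h3, ← h1]; ring
    have := Nat.eq_of_mul_eq_mul_right hpos h4
    omega
  · rintro ⟨x, hx⟩
    apply Subtype.ext
    obtain ⟨s, hs, rfl⟩ := hx
    show QuotientGroup.mk' (Subgroup.zpowers t) s * QuotientGroup.mk' (Subgroup.zpowers t) s = 1
    rw [← map_mul, ← pow_two]
    rcases D.sq s hs with h | h
    · rw [h, map_one]
    · rw [h]
      exact (QuotientGroup.eq_one_iff t).mpr (Subgroup.mem_zpowers t)

/-- the central quotient has one class of involutions -/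
theorem quot_invol_conj (D : Q8Syl S t) (hidx : ∀ N : Subgroup G, N.Normal → N.index ≠ 2)
    (hc : ∀ g : G, g * t = t * g) [hn : (Subgroup.zpowers t).Normal]
    (a b : G ⧸ Subgroup.zpowers t) (ha : orderOf a = 2) (hb : orderOf b = 2) : IsConj a b := by
  have key : ∀ a : G ⧸ Subgroup.zpowers t, orderOf a = 2 →
      ∃ g : G, orderOf g = 4 ∧ (g : G ⧸ Subgroup.zpowers t) = a := by
    intro a ha
    obtain ⟨g, rfl⟩ := QuotientGroup.mk_surjective a
    refine ⟨g, ?_, rfl⟩
    have h2 : g ^ 2 ∈ Subgroup.zpowers t := by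
      rw [← QuotientGroup.eq_one_iff, QuotientGroup.mk_pow, ← ha, pow_orderOf_eq_one]
    have hgn : g ∉ Subgroup.zpowers t := by
      intro h
      rw [(QuotientGroup.eq_one_iff g).mpr h, orderOf_one] at ha
      omega
    have hne : g ^ 2 ≠ 1 := by
      intro h
      apply hgn
      by_cases hg1 : g = 1
      · rw [hg1]; exact Subgroup.one_mem _
      · rw [invol_eq D hc (orderOf_eq_prime h hg1)]
        exact Subgroup.mem_zpowers _
    apply orderOf_four_of _ hne
    have : g ^ 4 = (g ^ 2) ^ 2 := by rw [← pow_mul]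
    rw [this]
    rcases mem_zpowers_t D h2 with h | h
    · rw [h, one_pow]
    · rw [h, D.t_sq]
  obtain ⟨g, hg, rfl⟩ := key a ha
  obtain ⟨h, hh, rfl⟩ := key b hb
  exact (QuotientGroup.mk' (Subgroup.zpowers t)).map_isConj (D.isConj_of_orderOf_four hidx hg hh)

end Cfsg.Agent.Lib.Helper8.BQ
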