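import Mathlib
import Cfsg.Agent.Lib.Helper8.BQ1
import Cfsg.Agent.Lib.Helper8.BQ2
import Cfsg.Agent.Lib.Helper8.BQ3
import Cfsg.Agent.S4512
import Cfsg.Agent.S4652
import Cfsg.Agent.S4669

/-!
# The principal 2-block of a group with quaternion Sylow 2-subgroups of order 8
-/

set_option autoImplicit false

namespace Cfsg.Agent.Lib.Helper8.BQ

open Cfsg Cfsg.H9 Cfsg.Agent.Lib.Helper8.ZS Cfsg.Agent.BlockLib

universe u

variable {G : Type u} [Group G] [Finite G] {S : Sylow 2 G} {t : G}

theorem rank_centralizer_four (D : Q8Syl S t) {M : Ideal AlgInt} (hM : IsPModular 2 M) {v : G}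
    (hv : orderOf v = 4) :
    blockRank 2 (principalBlock M ↥(Subgroup.centralizer ({v} : Set G))) = 1 := by
  classical
  have : Fact (Nat.Prime 2) := ⟨Nat.prime_two⟩
  have hz : IsPGroup 2 (Subgroup.zpowers (⟨v, Subgroup.mem_centralizer_singleton_iff.mpr rfl⟩ :
      Subgroup.centralizer ({v} : Set G))) :=
    IsPGroup.of_card (n := 2) (by rw [Nat.card_zpowers, Subgroup.orderOf_mk, hv]; norm_num)
  obtain ⟨P, hP⟩ := hz.exists_le_sylow
  have hPe := D.sylow_centralizer hv P (hP (Subgroup.mem_zpowers _))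
  cases nonempty_fintype (Subgroup.centralizer ({v} : Set G))
  have hD : IsDefectGroup 2 M (principalBlock M (Subgroup.centralizer ({v} : Set G)))
      (P : Subgroup (Subgroup.centralizer ({v} : Set G))) :=
    (Cfsg.Agent.S4652.result 2 M hM _).mpr ⟨P, rfl⟩
  apply Cfsg.Agent.S4669.result 2 M hM _ isPBlock_principalBlock _ hD
  rw [hPe, Subgroup.zpowers_le, Subgroup.mem_center_iff]
  intro g
  apply Subtype.ext
  exact (Subgroup.mem_centralizer_singleton_iff.mp g.2)

open Classical in
theorem card_q8 (D : Q8Syl S t) (hcore : pPrimeCore 2 G = ⊥) (hG : (S : Subgroup G) ≠ ⊤)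
    {M : Ideal AlgInt} (hM : IsPModular 2 M) [hn : (Subgroup.zpowers t).Normal]
    (hinf : ∀ χ : IrrCharacter (G ⧸ Subgroup.zpowers t),
      χ ∈ principalBlock M (G ⧸ Subgroup.zpowers t) ↔
        infl (Subgroup.zpowers t) χ ∈ principalBlock M G) :
    Nat.card (principalBlock M G) = 7 := by
  have : Fact (Nat.Prime 2) := ⟨Nat.prime_two⟩
  obtain ⟨v, hvS, hv⟩ := exists_order_four D
  have hc := t_central D hcore
  have hidx := no_index_two D hcore hG
  have hX : ∀ x ∈ ({1, t, v} : Finset G), ∃ k : ℕ, orderOf x = 2 ^ k := by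
    intro x hx
    simp only [Finset.mem_insert, Finset.mem_singleton] at hx
    rcases hx with rfl | rfl | rfl
    · exact ⟨0, by simp⟩
    · exact ⟨1, by simpa using D.orderOf_t⟩
    · exact ⟨2, by simpa using hv⟩
  rw [card_principalBlock hM ({1, t, v} : Finset G) hX (reps D hcore hG hv)]
  have htv : t ≠ v := by
    rintro rfl
    have := D.orderOf_t
    omega
  have h1t : (1 : G) ∉ ({t, v} : Finset G) := by
    simp only [Finset.mem_insert, Finset.mem_singleton, not_or]
    refine ⟨fun h => D.t_ne h.symm, ?_⟩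
    rintro rfl
    rw [orderOf_one] at hv
    omega
  rw [Finset.sum_insert h1t, Finset.sum_insert (by simpa using htv), Finset.sum_singleton]
  have hC1 : Subgroup.centralizer ({1} : Set G) = ⊤ := by
    rw [eq_top_iff]
    intro g _
    rw [Subgroup.mem_centralizer_singleton_iff]
    simp
  have hCt : Subgroup.centralizer ({t} : Set G) = ⊤ := by
    rw [eq_top_iff]
    intro g _
    rw [Subgroup.mem_centralizer_singleton_iff]
    first
      | exact hc g
      | exact (hc g).symm
  rw [blockRank_principalBlock_of_eq_top 2 hC1, blockRank_principalBlock_of_eq_top 2 hCt,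
    rank_centralizer_four D hM hv]
  have hQ : IsPGroup 2 (Subgroup.zpowers t) :=
    IsPGroup.of_card (n := 1) (by rw [Nat.card_zpowers, D.orderOf_t]; norm_num)
  have hsup : Subgroup.zpowers t ⊔ Subgroup.centralizer ((Subgroup.zpowers t : Subgroup G) : Set G)
      = ⊤ := by
    have : Subgroup.centralizer ((Subgroup.zpowers t : Subgroup G) : Set G) = ⊤ := by
      rw [Subgroup.zpowers_eq_closure, Subgroup.centralizer_closure]
      simpa using hCt
    rw [this, sup_top_eq]
  rw [blockRank_quot hM (Subgroup.zpowers t) hQ hsup hinf]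
  obtain ⟨P, hP4, hPexp⟩ := quot_sylow D
  rw [Cfsg.Agent.S4512.result M hM P hP4 hPexp (quot_invol_conj D hidx hc)]
  rfl

end Cfsg.Agent.Lib.Helper8.BQ
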