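import Mathlib
import Cfsg.Prelude.Def_Involutions
import Cfsg.Agent.Lib.Helper8.Invol
import Cfsg.Agent.Lib.Helper8.Isolated
import Cfsg.Agent.Lib.Helper8.Conj

/-!
# Actions in which an involution fixes at most one point; strongly embedded subgroups
-/

namespace Cfsg.Agent.Lib.Helper8

open MulAction

/-- every involution fixes at most one point -/
def UF (G Ω : Type*) [Group G] [MulAction G Ω] : Prop :=
  ∀ i : G, i ≠ 1 → i * i = 1 → ∀ p q : Ω, i • p = p → i • q = q → p = q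

namespace UF

variable {G Ω : Type*} [Group G] [MulAction G Ω]

theorem fix_of_commute (hU : UF G Ω) {i g : G} (hi1 : i ≠ 1) (hii : i * i = 1) {p : Ω}
    (hp : i • p = p) (hc : Commute g i) : g • p = p := by
  apply hU i hi1 hii _ _ _ hp
  rw [← mul_smul, ← hc.eq, mul_smul, hp]

theorem odd_mul [Finite G] (hU : UF G Ω) {s s' : G} (hs1 : s ≠ 1) (hss : s * s = 1)
    (hs1' : s' ≠ 1) (hss' : s' * s' = 1) {p q : Ω} (hp : s • p = p) (hq : s' • q = q)
    (hpq : p ≠ q) : Odd (orderOf (s * s')) := by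
  rcases odd_or_central_invol hss hss' with h | ⟨c, hc1, hcc, hsc, hsc', -, -⟩
  · exact h
  · exfalso
    have h1 : c • p = p := fix_of_commute hU hs1 hss hp hsc.symm
    have h2 : c • q = q := fix_of_commute hU hs1' hss' hq hsc'.symm
    exact hpq (hU c hc1 hcc p q h1 h2)

/-- the involution of `⟨s, s'⟩` interchanging `s` and `s'` -/
theorem exists_swap [Finite G] (hU : UF G Ω) {s s' : G} (hs1 : s ≠ 1) (hss : s * s = 1)
    (hs1' : s' ≠ 1) (hss' : s' * s' = 1) {p q : Ω} (hp : s • p = p) (hq : s' • q = q)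
    (hpq : p ≠ q) : ∃ w : G, w * w = 1 ∧ w * s * w = s' ∧
      ∀ d : G, Commute d s → Commute d s' → Commute d w := by
  obtain ⟨m, hm⟩ := odd_mul hU hs1 hss hs1' hss' hp hq hpq
  have h1 : (s * s') ^ (2 * m + 1) = 1 := by rw [← hm]; exact pow_orderOf_eq_one _
  obtain ⟨h2, h3⟩ := exists_invol_swap hss hss' h1
  exact ⟨_, h2, h3, fun d hd hd' => ((hd.mul_right hd').pow_right m).mul_right hd⟩

theorem swap_smul (hU : UF G Ω) {s s' w : G} (hs1' : s' ≠ 1) (hss' : s' * s' = 1)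
    {p q : Ω} (hp : s • p = p) (hq : s' • q = q) (hww : w * w = 1) (hw : w * s * w = s') :
    w • p = q := by
  apply hU s' hs1' hss' _ _ _ hq
  rw [← hw, mul_smul, mul_smul, ← mul_smul w w, hww, one_smul, hp]

theorem swap_smul' {w : G} {p q : Ω} (hww : w * w = 1) (h : w • p = q) : w • q = p := by
  rw [← h, ← mul_smul, hww, one_smul]

theorem swap_unique [Finite G] (hU : UF G Ω) {s s' : G} (hs1 : s ≠ 1) (hss : s * s = 1)
    (hs1' : s' ≠ 1) (hss' : s' * s' = 1) {p q : Ω} (hp : s • p = p) (hq : s' • q = q)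
    (hpq : p ≠ q) {w w' : G} (hww : w * w = 1) (hw : w * s * w = s')
    (hww' : w' * w' = 1) (hw' : w' * s * w' = s') : w = w' := by
  obtain ⟨w₀, hw₀w₀, hw₀, hcomm⟩ := exists_swap hU hs1 hss hs1' hss' hp hq hpq
  have key : ∀ w : G, w * w = 1 → w * s * w = s' → w = w₀ := by
    intro w hww hw
    have hws' : w * s' * w = s := by
      rw [← hw]
      calc w * (w * s * w) * w = (w * w) * s * (w * w) := by group
        _ = s := by rw [hww]; group
    have hw₀s' : w₀ * s' * w₀ = s := by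
      rw [← hw₀]
      calc w₀ * (w₀ * s * w₀) * w₀ = (w₀ * w₀) * s * (w₀ * w₀) := by group
        _ = s := by rw [hw₀w₀]; group
    have c1 : Commute (w₀ * w) s := by
      show w₀ * w * s = s * (w₀ * w)
      calc w₀ * w * s = w₀ * (w * s * w) * (w * w)⁻¹ * w := by group
        _ = (w₀ * s' * w₀) * (w₀ * w₀)⁻¹ * w₀ * w := by rw [hw, hww]; group
        _ = s * (w₀ * w) := by rw [hw₀s', hw₀w₀]; group
    have c2 : Commute (w₀ * w) s' := by
      show w₀ * w * s' = s' * (w₀ * w)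
      calc w₀ * w * s' = w₀ * (w * s' * w) * (w * w)⁻¹ * w := by group
        _ = (w₀ * s * w₀) * (w₀ * w₀)⁻¹ * w₀ * w := by rw [hws', hww]; group
        _ = s' * (w₀ * w) := by rw [hw₀, hw₀w₀]; group
    have c3 : Commute (w₀ * w) w₀ := hcomm _ c1 c2
    have hsq : (w₀ * w) * (w₀ * w) = 1 := by
      calc (w₀ * w) * (w₀ * w) = ((w₀ * w) * w₀) * w := by group
        _ = (w₀ * (w₀ * w)) * w := by rw [c3.eq]
        _ = (w₀ * w₀) * (w * w) := by group
        _ = 1 := by rw [hw₀w₀, hww, one_mul]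
    have e1 := swap_smul hU hs1' hss' hp hq hww hw
    have e2 := swap_smul hU hs1' hss' hp hq hw₀w₀ hw₀
    have f1 : (w₀ * w) • p = p := by rw [mul_smul, e1, swap_smul' hw₀w₀ e2]
    have f2 : (w₀ * w) • q = q := by rw [mul_smul, swap_smul' hww e1, e2]
    by_contra hne
    have hne1 : w₀ * w ≠ 1 := by
      intro h
      apply hne
      calc w = (w₀ * w₀) * w := by rw [hw₀w₀, one_mul]
        _ = w₀ * (w₀ * w) := by group
        _ = w₀ := by rw [h, mul_one]
    exact hpq (hU _ hne1 hsq p q f1 f2)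
  rw [key w hww hw, key w' hww' hw']

end UF

/-! ### strongly embedded subgroups -/

namespace SE

variable {G : Type*} [Group G] {H : Subgroup G}

theorem smul_mk_eq_iff {i g g' : G} :
    i • (g : G ⧸ H) = (g' : G ⧸ H) ↔ g'⁻¹ * i * g ∈ H := by
  rw [MulAction.Quotient.smul_coe, QuotientGroup.eq, smul_eq_mul, ← inv_mem_iff (x := g'⁻¹ * i * g)]
  have : (g'⁻¹ * i * g)⁻¹ = (i * g)⁻¹ * g' := by group
  rw [this]

theorem mem_of_invol_mem [Finite G] (hH : Cfsg.IsStronglyEmbedded H) {s g : G} (hs1 : s ≠ 1)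
    (hss : s * s = 1) (hs : s ∈ H) (hsg : g⁻¹ * s * g ∈ H) : g ∈ H := by
  by_contra hg
  have hodd := hH.2.2 g hg
  have hmem : s ∈ H ⊓ H.map (MulAut.conj g).toMonoidHom :=
    Subgroup.mem_inf.mpr ⟨hs, mem_cj.mpr hsg⟩
  have h1 : orderOf (⟨s, hmem⟩ : ↥(H ⊓ H.map (MulAut.conj g).toMonoidHom)) ∣ _ :=
    orderOf_dvd_natCard _
  rw [Subgroup.orderOf_mk, orderOf_two_of hs1 hss] at h1
  exact (Nat.not_even_iff_odd.mpr hodd) (even_iff_two_dvd.mpr h1)

theorem uf [Finite G] (hH : Cfsg.IsStronglyEmbedded H) : UF G (G ⧸ H) := by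
  intro i hi1 hii p q
  induction p using QuotientGroup.induction_on with
  | H a =>
    induction q using QuotientGroup.induction_on with
    | H b =>
      intro hp hq
      rw [smul_mk_eq_iff] at hp hq
      rw [QuotientGroup.eq]
      have h1 : a⁻¹ * i * a ≠ 1 := by
        intro h
        apply hi1
        calc i = a * (a⁻¹ * i * a) * a⁻¹ := by group
          _ = 1 := by rw [h]; group
      have h2 : (a⁻¹ * i * a) * (a⁻¹ * i * a) = 1 := by
        calc (a⁻¹ * i * a) * (a⁻¹ * i * a) = a⁻¹ * (i * i) * a := by group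
          _ = 1 := by rw [hii]; group
      apply mem_of_invol_mem hH h1 h2 hp
      have : (a⁻¹ * b)⁻¹ * (a⁻¹ * i * a) * (a⁻¹ * b) = b⁻¹ * i * b := by group
      rw [this]; exact hq

theorem exists_invol [Finite G] (hH : Cfsg.IsStronglyEmbedded H) :
    ∃ s ∈ H, s ≠ 1 ∧ s * s = 1 := by
  have h2 : 2 ∣ Nat.card H := even_iff_two_dvd.mp hH.2.1
  obtain ⟨s, hs⟩ := exists_prime_orderOf_dvd_card' (G := H) 2 h2
  refine ⟨s, s.2, ?_, ?_⟩
  · intro h
    have : s = 1 := Subtype.ext h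
    rw [this] at hs; simp at hs
  · have := mul_self_of_orderOf_two hs
    exact congrArg Subtype.val this

theorem mem_iff_smul {g : G} : g ∈ H ↔ g • ((1 : G) : G ⧸ H) = ((1 : G) : G ⧸ H) := by
  rw [smul_mk_eq_iff]; simp

theorem inf_cj_eq (u : G) : H ⊓ H.map (MulAut.conj u).toMonoidHom =
    stabilizer G ((1 : G) : G ⧸ H) ⊓ stabilizer G (u • ((1 : G) : G ⧸ H)) := by
  rw [stabilizer_smul_eq_stabilizer_map_conj, stabilizer_quotient]

end SE

end Cfsg.Agent.Lib.Helper8
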