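import Mathlib
import Cfsg.Agent.Lib.Helper8.UF

/-!
# Actions in which an involution fixes at most one point, II
-/

namespace Cfsg.Agent.Lib.Helper8

open MulAction

namespace UF

variable {G Ω : Type*} [Group G] [MulAction G Ω]

theorem exists_swap_of_not_fix [Finite G] (hU : UF G Ω) {s a : G} (hs1 : s ≠ 1) (hss : s * s = 1)
    (haa : a * a = 1) {p : Ω} (hp : s • p = p) (hap : a • p ≠ p) :
    ∃ w : G, w * w = 1 ∧ w * s * w = a := by
  rcases odd_or_central_invol hss haa with ⟨m, hm⟩ | ⟨c, hc1, hcc, hsc, hac, -, -⟩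
  · have h1 : (s * a) ^ (2 * m + 1) = 1 := by rw [← hm]; exact pow_orderOf_eq_one _
    exact ⟨_, exists_invol_swap hss haa h1⟩
  · exfalso
    have h1 : c • p = p := fix_of_commute hU hs1 hss hp hsc.symm
    exact hap (fix_of_commute hU hc1 hcc h1 hac)

/-- the two-point stabiliser is transitive on the involutions fixing the first point -/
theorem exists_conj_two_point [Finite G] (hU : UF G Ω) {s t s' : G} (hs1 : s ≠ 1) (hss : s * s = 1)
    (ht1 : t ≠ 1) (htt : t * t = 1) (hs1' : s' ≠ 1) (hss' : s' * s' = 1) {p q : Ω}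
    (hp : s • p = p) (hp' : t • p = p) (hq : s' • q = q) (hpq : p ≠ q) :
    ∃ d : G, d • p = p ∧ d • q = q ∧ d * s * d⁻¹ = t := by
  obtain ⟨w₁, hw₁, e₁, -⟩ := exists_swap hU hs1 hss hs1' hss' hp hq hpq
  obtain ⟨w₂, hw₂, e₂, -⟩ := exists_swap hU ht1 htt hs1' hss' hp' hq hpq
  have f₁ := swap_smul hU hs1' hss' hp hq hw₁ e₁
  have f₂ := swap_smul hU hs1' hss' hp' hq hw₂ e₂
  refine ⟨w₂ * w₁, ?_, ?_, ?_⟩
  · rw [mul_smul, f₁, swap_smul' hw₂ f₂]
  · rw [mul_smul, swap_smul' hw₁ f₁, f₂]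
  · have i₁ := inv_eq_self_of_mul_self hw₁
    have i₂ := inv_eq_self_of_mul_self hw₂
    rw [mul_inv_rev, i₁, i₂]
    calc w₂ * w₁ * s * (w₁ * w₂) = w₂ * (w₁ * s * w₁) * w₂ := by group
      _ = w₂ * (w₂ * t * w₂) * w₂ := by rw [e₁, e₂]
      _ = (w₂ * w₂) * t * (w₂ * w₂) := by group
      _ = t := by rw [hw₂]; group

end UF

theorem conj_ne_one {G : Type*} [Group G] {s : G} (hs : s ≠ 1) (g : G) : g * s * g⁻¹ ≠ 1 := by
  intro h
  apply hs
  calc s = g⁻¹ * (g * s * g⁻¹) * g := by group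
    _ = 1 := by rw [h]; group

theorem conj_smul_fix {G Ω : Type*} [Group G] [MulAction G Ω] {s : G} {p : Ω} (hp : s • p = p)
    (g : G) : (g * s * g⁻¹) • (g • p) = g • p := by
  rw [mul_smul, mul_smul, inv_smul_smul, hp]

end Cfsg.Agent.Lib.Helper8
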