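import Mathlib
import Cfsg.Agent.Lib.Helper8.UF2

/-!
# Counting the involutions interchanging two points
-/

namespace Cfsg.Agent.Lib.Helper8

open MulAction

namespace UF

variable {G Ω : Type*} [Group G] [MulAction G Ω]

theorem card_swap [Finite G] (hU : UF G Ω) {x y : Ω} (hxy : x ≠ y)
    (hx : ∃ s : G, orderOf s = 2 ∧ s • x = x) :
    Nat.card {i : G // orderOf i = 2 ∧ i • x = y} = Nat.card {s : G // orderOf s = 2 ∧ s • y = y} := by
  let φ : {s : G // orderOf s = 2 ∧ s • x = x} × {i : G // orderOf i = 2 ∧ i • x = y} →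
      {s : G // orderOf s = 2 ∧ s • x = x} × {s : G // orderOf s = 2 ∧ s • y = y} :=
    fun p => (p.1, ⟨(p.2 : G) * (p.1 : G) * (p.2 : G), by
      have hww := mul_self_of_orderOf_two p.2.2.1
      have hwi := inv_eq_self_of_mul_self hww
      have hs1 := ne_one_of_orderOf_two p.1.2.1
      have hss := mul_self_of_orderOf_two p.1.2.1
      constructor
      · have h1 := conj_ne_one hs1 (p.2 : G)
        have h2 := conj_mul_self hss (p.2 : G)
        rw [hwi] at h1 h2
        exact orderOf_two_of h1 h2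
      · rw [mul_smul, mul_smul, swap_smul' hww p.2.2.2, p.1.2.2, p.2.2.2]⟩)
  have hφ : Function.Bijective φ := by
    constructor
    · rintro ⟨s, w⟩ ⟨s', w'⟩ h
      have h1 : s = s' := congrArg Prod.fst h
      subst h1
      have h2 : (w : G) * (s : G) * (w : G) = (w' : G) * (s : G) * (w' : G) :=
        congrArg (fun p => (p.2 : G)) h
      have hww := mul_self_of_orderOf_two w.2.1
      have hww' := mul_self_of_orderOf_two w'.2.1
      have hs1 := ne_one_of_orderOf_two s.2.1
      have hss := mul_self_of_orderOf_two s.2.1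
      have hs' := (φ (s, w')).2.2
      have h3 : (w : G) = w' := swap_unique hU hs1 hss (ne_one_of_orderOf_two hs'.1)
        (mul_self_of_orderOf_two hs'.1) s.2.2 hs'.2 hxy hww h2 hww' rfl
      exact Prod.ext rfl (Subtype.ext h3)
    · rintro ⟨s, s'⟩
      have hs1 := ne_one_of_orderOf_two s.2.1
      have hss := mul_self_of_orderOf_two s.2.1
      have hs1' := ne_one_of_orderOf_two s'.2.1
      have hss' := mul_self_of_orderOf_two s'.2.1
      obtain ⟨w, hww, hw, -⟩ := exists_swap hU hs1 hss hs1' hss' s.2.2 s'.2.2 hxy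
      have hwx := swap_smul hU hs1' hss' s.2.2 s'.2.2 hww hw
      have hw1 : w ≠ 1 := by
        rintro rfl
        rw [one_smul] at hwx
        exact hxy hwx
      exact ⟨(s, ⟨w, orderOf_two_of hw1 hww, hwx⟩), Prod.ext rfl (Subtype.ext hw)⟩
  have h1 := Nat.card_congr (Equiv.ofBijective φ hφ)
  rw [Nat.card_prod, Nat.card_prod] at h1
  obtain ⟨s, hs⟩ := hx
  have : Nonempty {s : G // orderOf s = 2 ∧ s • x = x} := ⟨⟨s, hs⟩⟩
  exact Nat.eq_of_mul_eq_mul_left Nat.card_pos h1

end UF

namespace SE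

variable {G : Type*} [Group G] {H : Subgroup G}

theorem card_invol_fix (b : G) :
    Nat.card {s : G // orderOf s = 2 ∧ s • (b : G ⧸ H) = (b : G ⧸ H)} =
      Nat.card {t : G // orderOf t = 2 ∧ t ∈ H} := by
  symm
  apply Nat.card_congr
  refine Equiv.subtypeEquiv (MulAut.conj b).toEquiv ?_
  intro t
  have h1 : orderOf ((MulAut.conj b).toEquiv t) = orderOf t := MulEquiv.orderOf_eq (MulAut.conj b) t
  rw [h1, smul_mk_eq_iff]
  have h2 : b⁻¹ * (MulAut.conj b).toEquiv t * b = t := by
    show b⁻¹ * (b * t * b⁻¹) * b = t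
    group
  rw [h2]

end SE

end Cfsg.Agent.Lib.Helper8
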