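import Mathlib
import Cfsg.Agent.Lib.Helper8.UF3

/-!
# Groups in which the centraliser of every involution is an elementary abelian 2-group
-/

namespace Cfsg.Agent.Lib.Helper8

open MulAction

namespace CIT

variable {G : Type*} [Group G]

/-- the hypothesis on centralisers of involutions -/
def Hyp (G : Type*) [Group G] : Prop :=
  ∀ t : G, orderOf t = 2 → IsMulCommutative (Subgroup.centralizer ({t} : Set G)) ∧
    ∀ c ∈ Subgroup.centralizer ({t} : Set G), c ^ 2 = 1

theorem isPGroup_of_sq {K : Subgroup G} (h : ∀ c ∈ K, c ^ 2 = 1) : IsPGroup 2 K := by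
  intro c
  refine ⟨1, ?_⟩
  apply Subtype.ext
  simpa using h c c.2

theorem cent_isPGroup (hC : Hyp G) {t : G} (ht : orderOf t = 2) :
    IsPGroup 2 (Subgroup.centralizer ({t} : Set G)) := isPGroup_of_sq (hC t ht).2

/-- a non-trivial Sylow 2-subgroup is the centraliser of one of its involutions -/
theorem exists_eq_cent [Finite G] (hC : Hyp G) (P : Sylow 2 G) (hP : (P : Subgroup G) ≠ ⊥) :
    ∃ z : G, orderOf z = 2 ∧ Subgroup.centralizer ({z} : Set G) = P := by
  have : Fact (Nat.Prime 2) := ⟨Nat.prime_two⟩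
  have hnt : Nontrivial (P : Subgroup G) := (Subgroup.nontrivial_iff_ne_bot _).mpr hP
  have hZ : Nontrivial (Subgroup.center (P : Subgroup G)) := P.2.center_nontrivial
  have hZp : IsPGroup 2 (Subgroup.center (P : Subgroup G)) := P.2.to_subgroup _
  obtain ⟨n, hn0, hn⟩ := hZp.nontrivial_iff_card.mp hZ
  have h2 : 2 ∣ Nat.card (Subgroup.center (P : Subgroup G)) := by
    rw [hn]; exact dvd_pow_self 2 hn0.ne'
  obtain ⟨z, hz⟩ := exists_prime_orderOf_dvd_card' (G := Subgroup.center (P : Subgroup G)) 2 h2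
  have hz' : orderOf ((z : (P : Subgroup G)) : G) = 2 := by
    rw [Subgroup.orderOf_coe, Subgroup.orderOf_coe, hz]
  refine ⟨((z : (P : Subgroup G)) : G), hz', ?_⟩
  apply P.is_maximal' (cent_isPGroup hC hz')
  intro x hx
  rw [Subgroup.mem_centralizer_singleton_iff]
  have := Subgroup.mem_center_iff.mp z.2 ⟨x, hx⟩
  exact congrArg Subtype.val this

theorem sq_eq_one [Finite G] (hC : Hyp G) (P : Sylow 2 G) {t : G} (ht : t ∈ P) : t ^ 2 = 1 := by
  by_cases hP : (P : Subgroup G) = ⊥
  · have : t ∈ (P : Subgroup G) := ht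
    rw [hP, Subgroup.mem_bot] at this
    rw [this, one_pow]
  · obtain ⟨z, hz, hzP⟩ := exists_eq_cent hC P hP
    apply (hC z hz).2
    rw [hzP]; exact ht

theorem comm [Finite G] (hC : Hyp G) (P : Sylow 2 G) {s t : G} (hs : s ∈ P) (ht : t ∈ P) :
    s * t = t * s := by
  by_cases hP : (P : Subgroup G) = ⊥
  · have : t ∈ (P : Subgroup G) := ht
    rw [hP, Subgroup.mem_bot] at this
    rw [this, one_mul, mul_one]
  · obtain ⟨z, hz, hzP⟩ := exists_eq_cent hC P hP
    have h1 := (hC z hz).1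
    have hs' : s ∈ Subgroup.centralizer ({z} : Set G) := by rw [hzP]; exact hs
    have ht' : t ∈ Subgroup.centralizer ({z} : Set G) := by rw [hzP]; exact ht
    have := h1.is_comm.comm ⟨s, hs'⟩ ⟨t, ht'⟩
    exact congrArg Subtype.val this

theorem orderOf_eq_two [Finite G] (hC : Hyp G) (P : Sylow 2 G) {t : G} (ht : t ∈ P) (ht1 : t ≠ 1) :
    orderOf t = 2 := orderOf_eq_prime (sq_eq_one hC P ht) ht1

/-- the centraliser of a non-identity element of a Sylow 2-subgroup is that Sylow subgroup -/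
theorem cent_eq [Finite G] (hC : Hyp G) (P : Sylow 2 G) {t : G} (ht : t ∈ P) (ht1 : t ≠ 1) :
    Subgroup.centralizer ({t} : Set G) = P := by
  apply P.is_maximal' (cent_isPGroup hC (orderOf_eq_two hC P ht ht1))
  intro x hx
  rw [Subgroup.mem_centralizer_singleton_iff]
  exact comm hC P hx ht

/-- distinct Sylow 2-subgroups meet trivially -/
theorem sylow_eq [Finite G] (hC : Hyp G) (P P' : Sylow 2 G) {t : G} (ht : t ∈ P) (ht' : t ∈ P')
    (ht1 : t ≠ 1) : P = P' := by
  apply Sylow.ext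
  rw [← cent_eq hC P ht ht1, cent_eq hC P' ht' ht1]

/-- an involution normalising a Sylow 2-subgroup lies in it -/
theorem mem_of_mem_normalizer (P : Sylow 2 G) {t : G} (htt : t * t = 1)
    (ht : t ∈ Subgroup.normalizer ((P : Subgroup G) : Set G)) : t ∈ P := by
  have h1 : IsPGroup 2 (Subgroup.zpowers t) := by
    apply isPGroup_of_sq
    intro c hc
    obtain ⟨k, rfl⟩ := Subgroup.mem_zpowers_iff.mp hc
    rw [← zpow_natCast, ← zpow_mul, mul_comm, zpow_mul]
    have : t ^ ((2 : ℕ) : ℤ) = 1 := by rw [zpow_natCast, pow_two, htt]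
    rw [this, one_zpow]
  have h2 : Subgroup.zpowers t ≤ Subgroup.normalizer ((P : Subgroup G) : Set G) := by
    rw [Subgroup.zpowers_le]; exact ht
  have h3 := P.2.to_sup_of_normal_left' h1 h2
  have h4 := P.is_maximal' h3 le_sup_left
  have h5 : t ∈ (P : Subgroup G) ⊔ Subgroup.zpowers t :=
    (le_sup_right : Subgroup.zpowers t ≤ _) (Subgroup.mem_zpowers t)
  rw [h4] at h5
  exact h5

theorem stronglyEmbedded [Finite G] (hC : Hyp G) (T : Sylow 2 G) (hnc : ¬ IsCyclic (T : Subgroup G))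
    (hnn : ¬ (T : Subgroup G).Normal) :
    Cfsg.IsStronglyEmbedded (Subgroup.normalizer ((T : Subgroup G) : Set G)) := by
  have : Fact (Nat.Prime 2) := ⟨Nat.prime_two⟩
  have hT : (T : Subgroup G) ≠ ⊥ := by
    intro h
    apply hnc
    rw [h]
    infer_instance
  refine ⟨fun h => hnn (Subgroup.normalizer_eq_top_iff.mp h), ?_, ?_⟩
  · have hnt : Nontrivial (T : Subgroup G) := (Subgroup.nontrivial_iff_ne_bot _).mpr hT
    obtain ⟨n, hn0, hn⟩ := T.2.nontrivial_iff_card.mp hnt
    have h2 : 2 ∣ Nat.card (T : Subgroup G) := by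
      rw [hn]; exact dvd_pow_self 2 hn0.ne'
    exact even_iff_two_dvd.mpr (h2.trans (Subgroup.card_dvd_of_le Subgroup.le_normalizer))
  · intro g hg
    by_contra hodd
    rw [Nat.not_odd_iff_even] at hodd
    obtain ⟨t, ht⟩ := exists_prime_orderOf_dvd_card' (G := ↥(Subgroup.normalizer ((T : Subgroup G) : Set G) ⊓
      (Subgroup.normalizer ((T : Subgroup G) : Set G)).map (MulAut.conj g).toMonoidHom)) 2
      (even_iff_two_dvd.mp hodd)
    have ht2 : orderOf (t : G) = 2 := by rw [Subgroup.orderOf_coe, ht]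
    have htt := mul_self_of_orderOf_two ht2
    have ht1 := ne_one_of_orderOf_two ht2
    obtain ⟨h1, h2⟩ := Subgroup.mem_inf.mp t.2
    have h3 := mem_of_mem_normalizer T htt h1
    rw [mem_cj] at h2
    have h4 : (g⁻¹ * (t : G) * g) * (g⁻¹ * (t : G) * g) = 1 := by
      have := conj_mul_self htt g⁻¹
      rwa [inv_inv] at this
    have h5 := mem_of_mem_normalizer T h4 h2
    have h6 : (t : G) ∈ g • T := by
      show (t : G) ∈ ((g • T : Sylow 2 G) : Subgroup G)
      rw [sylow_smul_coe, mem_cj]; exact h5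
    have h7 := sylow_eq hC T (g • T) h3 h6 ht1
    exact hg (Sylow.smul_eq_iff_mem_normalizer.mp h7.symm)

end CIT

end Cfsg.Agent.Lib.Helper8
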