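import Mathlib
import Cfsg.Prelude.Def_LieRecognition
import Cfsg.Agent.Lib.Helper8.Isolated

/-!
# An involution normalising a subgroup of odd order
-/

namespace Cfsg.Agent.Lib.Helper8

variable {M : Type*} [Group M]

theorem odd_orderOf_of_mem {X : Subgroup M} (hodd : Odd (Nat.card X)) {x : M} (hx : x ∈ X) :
    Odd (orderOf x) := by
  have h1 : orderOf (⟨x, hx⟩ : X) ∣ Nat.card X := orderOf_dvd_natCard _
  rw [Subgroup.orderOf_mk] at h1
  exact Odd.of_dvd_nat hodd h1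

theorem exists_sqrt_of_odd'' {k : M} (h : Odd (orderOf k)) : ∃ n : ℕ, k ^ n * k ^ n = k := by
  obtain ⟨n, hn⟩ := h
  refine ⟨n + 1, ?_⟩
  rw [← pow_add]
  have : n + 1 + (n + 1) = (2 * n + 1) + 1 := by ring
  rw [this, pow_succ, ← hn, pow_orderOf_eq_one, one_mul]

/-- existence of the factorisation `x = y z`, `y ∈ C_X(t)`, `z` inverted by `t` -/
theorem oddinv_exists {t : M} (htt : t * t = 1) {X : Subgroup M} (hodd : Odd (Nat.card X))
    (hnorm : ∀ x ∈ X, t * x * t⁻¹ ∈ X) {x : M} (hx : x ∈ X) :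
    ∃ y z : M, y ∈ X ⊓ Subgroup.centralizer {t} ∧ z ∈ Cfsg.invertedBy X t ∧ x = y * z := by
  have hti := inv_eq_self_of_mul_self htt
  set r := (t * x * t⁻¹)⁻¹ * x with hr
  have hrX : r ∈ X := X.mul_mem (X.inv_mem (hnorm x hx)) hx
  have hrinv : t * r * t⁻¹ = r⁻¹ := by
    rw [hr, hti]
    calc t * ((t * x * t)⁻¹ * x) * t = t * t⁻¹ * x⁻¹ * t⁻¹ * x * t := by group
      _ = x⁻¹ * t * x * t := by rw [hti, htt, one_mul]
      _ = x⁻¹ * (t * x * t) := by group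
      _ = ((t * x * t)⁻¹ * x)⁻¹ := by group
  obtain ⟨n, hn⟩ := exists_sqrt_of_odd'' (odd_orderOf_of_mem hodd hrX)
  have hzinv := pow_inverted hrinv n
  set z := r ^ n with hz
  have hzX : z ∈ X := X.pow_mem hrX n
  refine ⟨x * z⁻¹, z, Subgroup.mem_inf.mpr ⟨X.mul_mem hx (X.inv_mem hzX), ?_⟩, ⟨hzX, hzinv⟩, by group⟩
  rw [Subgroup.mem_centralizer_singleton_iff]
  -- `t (x z⁻¹) t⁻¹ = (t x t⁻¹) z = x z⁻¹`
  have h1 : t * z⁻¹ * t⁻¹ = z := by
    have := congrArg (·⁻¹) hzinv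
    simp only [mul_inv_rev, inv_inv] at this
    rw [← mul_assoc] at this
    exact this
  have h2 : (t * x * t⁻¹) * z = x * z⁻¹ := by
    have h3 : z * z = (t * x * t⁻¹)⁻¹ * x := hn
    calc (t * x * t⁻¹) * z = (t * x * t⁻¹) * (z * z) * z⁻¹ := by group
      _ = (t * x * t⁻¹) * ((t * x * t⁻¹)⁻¹ * x) * z⁻¹ := by rw [h3]
      _ = x * z⁻¹ := by group
  calc x * z⁻¹ * t = (t * x * t⁻¹) * z * t := by rw [h2]
    _ = (t * x * t⁻¹) * (t * z⁻¹ * t⁻¹) * t := by rw [h1]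
    _ = t * (x * z⁻¹) := by group

/-- uniqueness of the factorisation -/
theorem oddinv_unique {t : M} {X : Subgroup M} (hodd : Odd (Nat.card X))
    {y z y' z' : M} (hy : y ∈ X ⊓ Subgroup.centralizer {t}) (hz : z ∈ Cfsg.invertedBy X t)
    (hy' : y' ∈ X ⊓ Subgroup.centralizer {t}) (hz' : z' ∈ Cfsg.invertedBy X t)
    (h : y * z = y' * z') : y = y' ∧ z = z' := by
  have hyt := Subgroup.mem_centralizer_singleton_iff.mp (Subgroup.mem_inf.mp hy).2
  have hyt' := Subgroup.mem_centralizer_singleton_iff.mp (Subgroup.mem_inf.mp hy').2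
  have key : ∀ y z : M, y * t = t * y → t * z * t⁻¹ = z⁻¹ → (t * (y * z) * t⁻¹)⁻¹ * (y * z) = z * z := by
    intro y z h1 h2
    have : t * (y * z) * t⁻¹ = y * z⁻¹ := by
      calc t * (y * z) * t⁻¹ = (t * y) * z * t⁻¹ := by group
        _ = (y * t) * z * t⁻¹ := by rw [h1]
        _ = y * (t * z * t⁻¹) := by group
        _ = y * z⁻¹ := by rw [h2]
    rw [this]; group
  have h1 := key y z hyt hz.2
  have h2 := key y' z' hyt' hz'.2
  rw [h] at h1
  have h3 : z = z' := eq_of_sq_eq_of_odd (odd_orderOf_of_mem hodd hz.1) (odd_orderOf_of_mem hodd hz'.1)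
    (h1.symm.trans h2)
  refine ⟨?_, h3⟩
  rw [h3] at h
  exact mul_right_cancel h

/-- `|X| = |C_X(t)| · #inverted` -/
theorem oddinv_card [Finite M] {t : M} (htt : t * t = 1) {X : Subgroup M} (hodd : Odd (Nat.card X))
    (hnorm : ∀ x ∈ X, t * x * t⁻¹ ∈ X) :
    Nat.card X = Nat.card ↥(X ⊓ Subgroup.centralizer {t}) * Nat.card (Cfsg.invertedBy X t) := by
  let f : ↥(X ⊓ Subgroup.centralizer {t}) × (Cfsg.invertedBy X t) → X :=
    fun p => ⟨(p.1 : M) * (p.2 : M), X.mul_mem (Subgroup.mem_inf.mp p.1.2).1 p.2.2.1⟩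
  have hf : Function.Bijective f := by
    constructor
    · intro p q hpq
      have h1 : (p.1 : M) * (p.2 : M) = (q.1 : M) * (q.2 : M) := congrArg Subtype.val hpq
      obtain ⟨h2, h3⟩ := oddinv_unique hodd p.1.2 p.2.2 q.1.2 q.2.2 h1
      exact Prod.ext (Subtype.ext h2) (Subtype.ext h3)
    · intro x
      obtain ⟨y, z, hy, hz, hxyz⟩ := oddinv_exists htt hodd hnorm x.2
      exact ⟨(⟨y, hy⟩, ⟨z, hz⟩), Subtype.ext hxyz.symm⟩
  rw [← Nat.card_prod]
  exact (Nat.card_congr (Equiv.ofBijective f hf)).symm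

end Cfsg.Agent.Lib.Helper8
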