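import Mathlib
import Cfsg.Agent.Lib.Helper8.CIT
import Cfsg.Agent.Lib.Helper8.OddInv

/-!
# Groups in which the centraliser of every involution is an elementary abelian 2-group, II:
the two-point stabiliser
-/

namespace Cfsg.Agent.Lib.Helper8

open MulAction

namespace CIT

variable {G : Type*} [Group G] [Finite G]

/-- the normaliser of the Sylow subgroup -/
abbrev NT (T : Sylow 2 G) : Subgroup G := Subgroup.normalizer ((T : Subgroup G) : Set G)

/-- the two-point stabiliser -/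
abbrev DD (T : Sylow 2 G) (u : G) : Subgroup G := NT T ⊓ (NT T).map (MulAut.conj u).toMonoidHom

/-- the standing hypotheses -/
structure Setup (T : Sylow 2 G) : Prop where
  hC : Hyp G
  hnc : ¬ IsCyclic (T : Subgroup G)
  hnn : ¬ (T : Subgroup G).Normal

variable {T : Sylow 2 G}

theorem Setup.se (hS : Setup T) : Cfsg.IsStronglyEmbedded (NT T) :=
  stronglyEmbedded hS.hC T hS.hnc hS.hnn

theorem T_le_NT : (T : Subgroup G) ≤ NT T := Subgroup.le_normalizer

theorem D_odd_card (hS : Setup T) {u : G} (hu : u ∉ NT T) : Odd (Nat.card (DD T u)) :=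
  hS.se.2.2 u hu

theorem D_inf_T (hS : Setup T) {u : G} (hu : u ∉ NT T) {x : G} (hx : x ∈ DD T u) (hxT : x ∈ T) :
    x = 1 := by
  have h1 := odd_orderOf_of_mem (D_odd_card hS hu) hx
  have h2 : orderOf x ∣ 2 := orderOf_dvd_of_pow_eq_one (sq_eq_one hS.hC T hxT)
  rcases (Nat.dvd_prime Nat.prime_two).mp h2 with h | h
  · exact orderOf_eq_one_iff.mp h
  · rw [h] at h1; exact absurd h1 (by decide)

theorem D_norm {u : G} (huu : u * u = 1) {d : G} (hd : d ∈ DD T u) : u * d * u⁻¹ ∈ DD T u := by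
  obtain ⟨h1, h2⟩ := Subgroup.mem_inf.mp hd
  have hui := inv_eq_self_of_mul_self huu
  refine Subgroup.mem_inf.mpr ⟨?_, conj_mem_cj h1⟩
  rw [mem_cj, hui] at h2
  rw [hui]; exact h2

theorem D_inverted (hS : Setup T) {u : G} (hu2 : orderOf u = 2) (hu : u ∉ NT T) {d : G}
    (hd : d ∈ DD T u) : u * d * u⁻¹ = d⁻¹ := by
  have huu := mul_self_of_orderOf_two hu2
  obtain ⟨y, z, hy, hz, rfl⟩ := oddinv_exists huu (D_odd_card hS hu) (fun x hx => D_norm huu hx) hd
  obtain ⟨hyD, hyu⟩ := Subgroup.mem_inf.mp hy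
  have h1 := odd_orderOf_of_mem (D_odd_card hS hu) hyD
  have h2 : orderOf y ∣ 2 := orderOf_dvd_of_pow_eq_one ((hS.hC u hu2).2 y hyu)
  have hy1 : y = 1 := by
    rcases (Nat.dvd_prime Nat.prime_two).mp h2 with h | h
    · exact orderOf_eq_one_iff.mp h
    · rw [h] at h1; exact absurd h1 (by decide)
  rw [hy1, one_mul]
  exact hz.2

theorem D_comm (hS : Setup T) {u : G} (hu2 : orderOf u = 2) (hu : u ∉ NT T) {d d' : G}
    (hd : d ∈ DD T u) (hd' : d' ∈ DD T u) : d * d' = d' * d := by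
  have h1 := D_inverted hS hu2 hu hd
  have h2 := D_inverted hS hu2 hu hd'
  have h3 := D_inverted hS hu2 hu (Subgroup.mul_mem _ hd hd')
  have h4 : u * (d * d') * u⁻¹ = d⁻¹ * d'⁻¹ := by
    calc u * (d * d') * u⁻¹ = (u * d * u⁻¹) * (u * d' * u⁻¹) := by group
      _ = d⁻¹ * d'⁻¹ := by rw [h1, h2]
  rw [h3] at h4
  have h5 : (d * d')⁻¹ = (d' * d)⁻¹ := by rw [h4]; group
  exact inv_injective h5

theorem D_trans (hS : Setup T) {u : G} (hu : u ∉ NT T) {t t' : G} (ht : t ∈ T) (ht1 : t ≠ 1)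
    (ht' : t' ∈ T) (ht1' : t' ≠ 1) : ∃ d ∈ DD T u, d * t * d⁻¹ = t' := by
  have hU := SE.uf hS.se
  have htt := mul_self_of_orderOf_two (orderOf_eq_two hS.hC T ht ht1)
  have htt' := mul_self_of_orderOf_two (orderOf_eq_two hS.hC T ht' ht1')
  have hx := SE.mem_iff_smul.mp (T_le_NT ht)
  have hx' := SE.mem_iff_smul.mp (T_le_NT ht')
  have hxy : ((1 : G) : G ⧸ NT T) ≠ u • ((1 : G) : G ⧸ NT T) :=
    fun h => hu (SE.mem_iff_smul.mpr h.symm)
  obtain ⟨d, h1, h2, h3⟩ := UF.exists_conj_two_point hU ht1 htt ht1' htt' (conj_ne_one ht1 u)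
    (conj_mul_self htt u) hx hx' (conj_smul_fix hx u) hxy
  refine ⟨d, ?_, h3⟩
  show d ∈ NT T ⊓ (NT T).map (MulAut.conj u).toMonoidHom
  rw [SE.inf_cj_eq]
  exact Subgroup.mem_inf.mpr ⟨h1, h2⟩

theorem D_semireg (hS : Setup T) {u : G} (hu : u ∉ NT T) {d t : G} (hd : d ∈ DD T u) (ht : t ∈ T)
    (ht1 : t ≠ 1) (h : d * t = t * d) : d = 1 := by
  apply D_inf_T hS hu hd
  have h1 : d ∈ Subgroup.centralizer ({t} : Set G) := by
    rw [Subgroup.mem_centralizer_singleton_iff]; exact h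
  rw [cent_eq hS.hC T ht ht1] at h1
  exact h1

theorem exists_T_ne_one (hS : Setup T) : ∃ t ∈ T, t ≠ 1 := by
  by_contra h
  push Not at h
  apply hS.hnc
  have : (T : Subgroup G) = ⊥ := by
    rw [eq_bot_iff]
    intro x hx
    exact h x hx
  rw [this]
  infer_instance

theorem conj_mem_T {h t : G} (hh : h ∈ NT T) (ht : t ∈ T) : h * t * h⁻¹ ∈ T :=
  (Subgroup.mem_normalizer_iff.mp hh t).mp ht

theorem H_decomp (hS : Setup T) {u : G} (hu : u ∉ NT T) {h : G} (hh : h ∈ NT T) :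
    ∃ d ∈ DD T u, ∃ t ∈ T, h = d * t := by
  obtain ⟨t₀, ht₀, ht₀1⟩ := exists_T_ne_one hS
  obtain ⟨d, hd, hdt⟩ := D_trans hS hu ht₀ ht₀1 (conj_mem_T hh ht₀) (conj_ne_one ht₀1 h)
  refine ⟨d, hd, d⁻¹ * h, ?_, by group⟩
  have h1 : d⁻¹ * h ∈ Subgroup.centralizer ({t₀} : Set G) := by
    rw [Subgroup.mem_centralizer_singleton_iff]
    calc d⁻¹ * h * t₀ = d⁻¹ * (h * t₀ * h⁻¹) * h := by group
      _ = d⁻¹ * (d * t₀ * d⁻¹) * h := by rw [hdt]
      _ = t₀ * (d⁻¹ * h) := by group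
  rw [cent_eq hS.hC T ht₀ ht₀1] at h1
  exact h1

theorem card_T (hS : Setup T) {u : G} (hu : u ∉ NT T) :
    Nat.card T = Nat.card (DD T u) + 1 := by
  obtain ⟨t₀, ht₀, ht₀1⟩ := exists_T_ne_one hS
  let φ : Option (DD T u) → T := fun o =>
    o.elim 1 (fun d => ⟨(d : G) * t₀ * (d : G)⁻¹, conj_mem_T (Subgroup.mem_inf.mp d.2).1 ht₀⟩)
  have hφ : Function.Bijective φ := by
    constructor
    · intro o o' h
      cases o with
      | none =>
        cases o' with
        | none => rfl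
        | some d' =>
          exfalso
          have h1 : (1 : G) = (d' : G) * t₀ * (d' : G)⁻¹ := congrArg Subtype.val h
          exact conj_ne_one ht₀1 _ h1.symm
      | some d =>
        cases o' with
        | none =>
          exfalso
          have h1 : (d : G) * t₀ * (d : G)⁻¹ = 1 := congrArg Subtype.val h
          exact conj_ne_one ht₀1 _ h1
        | some d' =>
          have h1 : (d : G) * t₀ * (d : G)⁻¹ = (d' : G) * t₀ * (d' : G)⁻¹ := congrArg Subtype.val h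
          have h2 : ((d' : G)⁻¹ * d) * t₀ = t₀ * ((d' : G)⁻¹ * d) := by
            calc ((d' : G)⁻¹ * d) * t₀ = (d' : G)⁻¹ * ((d : G) * t₀ * (d : G)⁻¹) * d := by group
              _ = (d' : G)⁻¹ * ((d' : G) * t₀ * (d' : G)⁻¹) * d := by rw [h1]
              _ = t₀ * ((d' : G)⁻¹ * d) := by group
          have h3 := D_semireg hS hu (Subgroup.mul_mem _ (Subgroup.inv_mem _ d'.2) d.2) ht₀ ht₀1 h2
          have h4 : (d : G) = d' := by
            calc (d : G) = d' * ((d' : G)⁻¹ * d) := by group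
              _ = d' := by rw [h3, mul_one]
          exact congrArg some (Subtype.ext h4)
    · intro t
      by_cases ht : (t : G) = 1
      · exact ⟨none, Subtype.ext ht.symm⟩
      · obtain ⟨d, hd, hdt⟩ := D_trans hS hu ht₀ ht₀1 t.2 ht
        exact ⟨some ⟨d, hd⟩, Subtype.ext hdt⟩
  have h := Nat.card_congr (Equiv.ofBijective φ hφ)
  rw [Finite.card_option] at h
  exact h.symm

theorem isComplement (hS : Setup T) {u : G} (hu : u ∉ NT T) :
    Subgroup.IsComplement' ((DD T u).subgroupOf (NT T)) ((T : Subgroup G).subgroupOf (NT T)) := by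
  apply Subgroup.isComplement'_of_disjoint_and_mul_eq_univ
  · rw [Subgroup.disjoint_def]
    intro x hx hx'
    rw [Subgroup.mem_subgroupOf] at hx hx'
    exact Subtype.ext (D_inf_T hS hu hx hx')
  · rw [Set.eq_univ_iff_forall]
    intro h
    obtain ⟨d, hd, t, ht, hdt⟩ := H_decomp hS hu h.2
    refine ⟨⟨d, (Subgroup.mem_inf.mp hd).1⟩, ?_, ⟨t, T_le_NT ht⟩, ?_, Subtype.ext hdt.symm⟩
    · exact Subgroup.mem_subgroupOf.mpr hd
    · exact Subgroup.mem_subgroupOf.mpr ht

theorem card_NT (hS : Setup T) {u : G} (hu : u ∉ NT T) :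
    Nat.card (NT T) = Nat.card T * (Nat.card T - 1) := by
  have h1 := (isComplement hS hu).card_mul_card
  have h2 : Nat.card ((DD T u).subgroupOf (NT T)) = Nat.card (DD T u) :=
    Nat.card_congr (Subgroup.subgroupOfEquivOfLe inf_le_left).toEquiv
  have h3 : Nat.card ((T : Subgroup G).subgroupOf (NT T)) = Nat.card T :=
    Nat.card_congr (Subgroup.subgroupOfEquivOfLe T_le_NT).toEquiv
  rw [h2, h3] at h1
  rw [← h1, card_T hS hu, Nat.add_sub_cancel, mul_comm]

end CIT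

end Cfsg.Agent.Lib.Helper8
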