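import Mathlib
import Cfsg.Agent.Lib.Helper8.CIT2

/-!
# Groups in which the centraliser of every involution is an elementary abelian 2-group, III:
fixed points of the two-point stabiliser
-/

namespace Cfsg.Agent.Lib.Helper8

open MulAction

namespace CIT

variable {G : Type*} [Group G] [Finite G] {T : Sylow 2 G}

/-- the base point -/
abbrev x₀ (T : Sylow 2 G) : G ⧸ NT T := ((1 : G) : G ⧸ NT T)

theorem mem_DD_iff {u d : G} : d ∈ DD T u ↔ d • x₀ T = x₀ T ∧ d • (u • x₀ T) = u • x₀ T := by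
  show d ∈ NT T ⊓ (NT T).map (MulAut.conj u).toMonoidHom ↔ _
  rw [SE.inf_cj_eq, Subgroup.mem_inf]
  rfl

theorem exists_invol_to (hS : Setup T) {p : G ⧸ NT T} (hp : p ≠ x₀ T) :
    ∃ w : G, orderOf w = 2 ∧ w ∉ NT T ∧ w • x₀ T = p := by
  have hU := SE.uf hS.se
  obtain ⟨t₀, ht₀, ht₀1⟩ := exists_T_ne_one hS
  have htt := mul_self_of_orderOf_two (orderOf_eq_two hS.hC T ht₀ ht₀1)
  have hx := SE.mem_iff_smul.mp (T_le_NT ht₀)
  obtain ⟨g, rfl⟩ := QuotientGroup.mk_surjective p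
  have hg : (QuotientGroup.mk g : G ⧸ NT T) = g • x₀ T := by
    rw [MulAction.Quotient.smul_coe, smul_eq_mul, mul_one]
  rw [hg] at hp ⊢
  obtain ⟨w, hww, hw, -⟩ := UF.exists_swap hU ht₀1 htt (conj_ne_one ht₀1 g) (conj_mul_self htt g)
    hx (conj_smul_fix hx g) hp.symm
  have hwx := UF.swap_smul hU (conj_ne_one ht₀1 g) (conj_mul_self htt g) hx (conj_smul_fix hx g)
    hww hw
  have hwH : w ∉ NT T := by
    intro h
    rw [SE.mem_iff_smul] at h
    exact hp (hwx.symm.trans h)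
  have hw1 : w ≠ 1 := by
    rintro rfl
    exact hwH (Subgroup.one_mem _)
  exact ⟨w, orderOf_two_of hw1 hww, hwH, hwx⟩

theorem DD_eq_of_fix (hS : Setup T) {u w : G} (hu : u ∉ NT T) (hw : w ∉ NT T)
    (hp : ∀ d ∈ DD T u, d • (w • x₀ T) = w • x₀ T) : DD T u = DD T w := by
  apply Subgroup.eq_of_le_of_card_ge
  · intro d hd
    rw [mem_DD_iff]
    exact ⟨(mem_DD_iff.mp hd).1, hp d hd⟩
  · have h1 := card_T hS hu
    have h2 := card_T hS hw
    omega

theorem DD_ne_bot (hS : Setup T) {u : G} (hu : u ∉ NT T) : ∃ d ∈ DD T u, d ≠ 1 := by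
  by_contra h
  push Not at h
  have h1 : DD T u = ⊥ := by
    rw [eq_bot_iff]
    intro x hx
    exact h x hx
  have h2 := card_T hS hu
  rw [h1, Subgroup.card_bot] at h2
  have : Fact (Nat.Prime 2) := ⟨Nat.prime_two⟩
  exact hS.hnc (isCyclic_of_prime_card (p := 2) h2)

theorem fix_D (hS : Setup T) {u : G} (hu2 : orderOf u = 2) (hu : u ∉ NT T) {p : G ⧸ NT T}
    (hp : ∀ d ∈ DD T u, d • p = p) : p = x₀ T ∨ p = u • x₀ T := by
  by_contra hcon
  push Not at hcon
  obtain ⟨hpx, hpy⟩ := hcon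
  have huu := mul_self_of_orderOf_two hu2
  have hui := inv_eq_self_of_mul_self huu
  obtain ⟨w, hw2, hwH, hwx⟩ := exists_invol_to hS hpx
  have hDw : DD T u = DD T w := DD_eq_of_fix hS hu hwH (by rw [hwx]; exact hp)
  have hp'x : u • p ≠ x₀ T := by
    intro h
    apply hpy
    rw [← h, ← mul_smul, huu, one_smul]
  have hp' : ∀ d ∈ DD T u, d • (u • p) = u • p := by
    intro d hd
    have h1 := hp _ (D_norm huu hd)
    rw [hui] at h1
    calc d • (u • p) = ((u * u) * d * u) • p := by rw [huu, one_mul, mul_smul]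
      _ = u • ((u * d * u) • p) := by rw [← mul_smul]; congr 1; group
      _ = u • p := by rw [h1]
  obtain ⟨w', hw2', hwH', hwx'⟩ := exists_invol_to hS hp'x
  have hDw' : DD T u = DD T w' := DD_eq_of_fix hS hu hwH' (by rw [hwx']; exact hp')
  have hww' := mul_self_of_orderOf_two hw2'
  -- `h = w' u w` lies in `H` and inverts `D`
  have hhH : w' * u * w ∈ NT T := by
    rw [SE.mem_iff_smul, mul_smul, mul_smul]
    show w' • u • w • x₀ T = x₀ T
    rw [hwx, ← hwx', ← mul_smul, hww', one_smul]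
  have hinv : ∀ d ∈ DD T u, (w' * u * w) * d * (w' * u * w)⁻¹ = d⁻¹ := by
    intro d hd
    have h1 : w * d * w⁻¹ = d⁻¹ := D_inverted hS hw2 hwH (hDw ▸ hd)
    have h2 : u * d⁻¹ * u⁻¹ = d⁻¹⁻¹ := D_inverted hS hu2 hu (Subgroup.inv_mem _ hd)
    have h3 : w' * d * w'⁻¹ = d⁻¹ := D_inverted hS hw2' hwH' (hDw' ▸ hd)
    calc (w' * u * w) * d * (w' * u * w)⁻¹ = w' * (u * (w * d * w⁻¹) * u⁻¹) * w'⁻¹ := by group
      _ = d⁻¹ := by rw [h1, h2, inv_inv, h3]
  obtain ⟨d₀, hd₀, t, ht, hdt⟩ := H_decomp hS hu hhH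
  obtain ⟨d, hd, hd1⟩ := DD_ne_bot hS hu
  have htd : t * d * t⁻¹ = d⁻¹ := by
    have h1 : t = d₀⁻¹ * (w' * u * w) := by rw [hdt]; group
    have h2 := D_comm hS hu2 hu (Subgroup.inv_mem _ hd) hd₀
    calc t * d * t⁻¹ = d₀⁻¹ * ((w' * u * w) * d * (w' * u * w)⁻¹) * d₀ := by rw [h1]; group
      _ = d₀⁻¹ * (d⁻¹ * d₀) := by rw [hinv d hd]; group
      _ = d₀⁻¹ * (d₀ * d⁻¹) := by rw [h2]
      _ = d⁻¹ := by group
  have h4 : d⁻¹ * d⁻¹ ∈ T := by
    have h5 : d⁻¹ * d⁻¹ = t * (d * t⁻¹ * d⁻¹) := by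
      calc d⁻¹ * d⁻¹ = (t * d * t⁻¹) * d⁻¹ := by rw [htd]
        _ = t * (d * t⁻¹ * d⁻¹) := by group
    rw [h5]
    exact Subgroup.mul_mem _ ht (conj_mem_T (Subgroup.mem_inf.mp hd).1 (Subgroup.inv_mem _ ht))
  have h6 := D_inf_T hS hu (Subgroup.mul_mem _ (Subgroup.inv_mem _ hd) (Subgroup.inv_mem _ hd)) h4
  have h7 : d⁻¹ = 1 := by
    have h8 := odd_orderOf_of_mem (D_odd_card hS hu) (Subgroup.inv_mem _ hd)
    exact eq_of_sq_eq_of_odd h8 (by simp) (by rw [h6, one_mul])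
  exact hd1 (inv_eq_one.mp h7)

theorem u_mem_normalizer {u : G} (huu : u * u = 1) :
    u ∈ Subgroup.normalizer ((DD T u : Subgroup G) : Set G) := by
  rw [Subgroup.mem_normalizer_iff]
  intro h
  constructor
  · exact fun hh => D_norm huu hh
  · intro hh
    have := D_norm huu hh
    have e : u * (u * h * u⁻¹) * u⁻¹ = h := by
      calc u * (u * h * u⁻¹) * u⁻¹ = (u * u) * h * (u * u)⁻¹ := by group
        _ = h := by rw [huu]; group
    rwa [e] at this

theorem normalizer_D (hS : Setup T) {u : G} (hu2 : orderOf u = 2) (hu : u ∉ NT T) :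
    Subgroup.normalizer ((DD T u : Subgroup G) : Set G) = DD T u ⊔ Subgroup.zpowers u := by
  have huu := mul_self_of_orderOf_two hu2
  have hxy : u • x₀ T ≠ x₀ T := fun h => hu (SE.mem_iff_smul.mpr h)
  apply le_antisymm
  · -- an element of the normaliser permutes the fixed points
    have hfix : ∀ n ∈ Subgroup.normalizer ((DD T u : Subgroup G) : Set G), ∀ p : G ⧸ NT T,
        (∀ d ∈ DD T u, d • p = p) → ∀ d ∈ DD T u, d • (n • p) = n • p := by
      intro n hn p hp d hd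
      have h1 : n⁻¹ * d * n⁻¹⁻¹ ∈ DD T u :=
        (Subgroup.mem_normalizer_iff.mp (Subgroup.inv_mem _ hn) d).mp hd
      have h2 := hp _ h1
      rw [inv_inv] at h2
      calc d • (n • p) = n • ((n⁻¹ * d * n) • p) := by rw [← mul_smul, ← mul_smul]; congr 1; group
        _ = n • p := by rw [h2]
    have hx : ∀ d ∈ DD T u, d • x₀ T = x₀ T := fun d hd => (mem_DD_iff.mp hd).1
    have hy : ∀ d ∈ DD T u, d • (u • x₀ T) = u • x₀ T := fun d hd => (mem_DD_iff.mp hd).2
    have key : ∀ n ∈ Subgroup.normalizer ((DD T u : Subgroup G) : Set G), n • x₀ T = x₀ T →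
        n ∈ DD T u := by
      intro n hn hnx
      rw [mem_DD_iff]
      refine ⟨hnx, ?_⟩
      rcases fix_D hS hu2 hu (hfix n hn _ hy) with h | h
      · exfalso
        exact hxy (smul_left_cancel n (h.trans hnx.symm))
      · exact h
    intro n hn
    rcases fix_D hS hu2 hu (hfix n hn _ hx) with h | h
    · exact (le_sup_left : DD T u ≤ _) (key n hn h)
    · have h1 : (u * n) • x₀ T = x₀ T := by rw [mul_smul, h, ← mul_smul, huu, one_smul]
      have h2 := key (u * n) (Subgroup.mul_mem _ (u_mem_normalizer huu) hn) h1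
      have h3 : n = u * (u * n) := by
        calc n = (u * u) * n := by rw [huu, one_mul]
          _ = u * (u * n) := by group
      rw [h3]
      exact Subgroup.mul_mem _ ((le_sup_right : Subgroup.zpowers u ≤ _) (Subgroup.mem_zpowers u))
        ((le_sup_left : DD T u ≤ _) h2)
  · apply sup_le Subgroup.le_normalizer
    rw [Subgroup.zpowers_le]
    exact u_mem_normalizer huu

end CIT

end Cfsg.Agent.Lib.Helper8
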