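import Mathlib
import Cfsg.Agent.Lib.Helper8.CIT3

/-!
# Groups in which the centraliser of every involution is an elementary abelian 2-group, IV:
sharp triple transitivity
-/

namespace Cfsg.Agent.Lib.Helper8

open MulAction

namespace CIT

variable {G : Type*} [Group G] [Finite G] {T : Sylow 2 G}

/-- `C_H(d) ≤ D` for `1 ≠ d ∈ D` -/
theorem cent_le_D (hS : Setup T) {u : G} (hu2 : orderOf u = 2) (hu : u ∉ NT T) {d h : G}
    (hd : d ∈ DD T u) (hd1 : d ≠ 1) (hh : h ∈ NT T) (hc : h * d = d * h) : h ∈ DD T u := by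
  obtain ⟨d₀, hd₀, t, ht, rfl⟩ := H_decomp hS hu hh
  have h1 := D_comm hS hu2 hu hd₀ hd
  have h2 : d * t = t * d := by
    have : d₀ * (t * d) = d₀ * (d * t) := by
      calc d₀ * (t * d) = d₀ * t * d := by group
        _ = d * (d₀ * t) := hc
        _ = (d * d₀) * t := by group
        _ = (d₀ * d) * t := by rw [h1]
        _ = d₀ * (d * t) := by group
    exact (mul_left_cancel this).symm
  by_cases ht1 : t = 1
  · rw [ht1, mul_one]; exact hd₀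
  · exact absurd (D_semireg hS hu hd ht ht1 h2) hd1

/-- an element fixing the base point and two further points is trivial -/
theorem eq_one_of_fix_three₀ (hS : Setup T) {g : G} {p p' : G ⧸ NT T} (hp : p ≠ x₀ T)
    (hp' : p' ≠ x₀ T) (hpp' : p ≠ p') (h0 : g • x₀ T = x₀ T) (h1 : g • p = p) (h2 : g • p' = p') :
    g = 1 := by
  by_contra hg
  obtain ⟨w, hw2, hwH, rfl⟩ := exists_invol_to hS hp
  obtain ⟨w', hw2', hwH', rfl⟩ := exists_invol_to hS hp'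
  have hgD : g ∈ DD T w := mem_DD_iff.mpr ⟨h0, h1⟩
  have hgD' : g ∈ DD T w' := mem_DD_iff.mpr ⟨h0, h2⟩
  have hfix : ∀ d ∈ DD T w, d • (w' • x₀ T) = w' • x₀ T := by
    intro d hd
    have h3 := cent_le_D hS hw2' hwH' hgD' hg (Subgroup.mem_inf.mp hd).1 (D_comm hS hw2 hwH hd hgD)
    exact (mem_DD_iff.mp h3).2
  rcases fix_D hS hw2 hwH hfix with h | h
  · exact hp' h
  · exact hpp' h.symm

theorem eq_one_of_fix_three (hS : Setup T) {g : G} {x₁ x₂ x₃ : G ⧸ NT T} (h12 : x₁ ≠ x₂)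
    (h13 : x₁ ≠ x₃) (h23 : x₂ ≠ x₃) (h1 : g • x₁ = x₁) (h2 : g • x₂ = x₂) (h3 : g • x₃ = x₃) :
    g = 1 := by
  obtain ⟨a, ha⟩ := exists_smul_eq G x₁ (x₀ T)
  have key : ∀ x : G ⧸ NT T, g • x = x → (a * g * a⁻¹) • (a • x) = a • x :=
    fun x hx => conj_smul_fix hx a
  have e := eq_one_of_fix_three₀ hS (g := a * g * a⁻¹) (p := a • x₂) (p' := a • x₃)
    (fun h => h12 (smul_left_cancel a (ha.trans h.symm)))
    (fun h => h13 (smul_left_cancel a (ha.trans h.symm)))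
    (fun h => h23 (smul_left_cancel a h)) (ha ▸ key x₁ h1) (key x₂ h2) (key x₃ h3)
  calc g = a⁻¹ * (a * g * a⁻¹) * a := by group
    _ = 1 := by rw [e]; group

theorem T_fix {t : G} (ht : t ∈ T) : t • x₀ T = x₀ T := SE.mem_iff_smul.mp (T_le_NT ht)

theorem T_semireg (hS : Setup T) {t : G} (ht : t ∈ T) {p : G ⧸ NT T} (hp : p ≠ x₀ T)
    (htp : t • p = p) : t = 1 := by
  by_contra ht1
  have htt := mul_self_of_orderOf_two (orderOf_eq_two hS.hC T ht ht1)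
  exact hp (SE.uf hS.se t ht1 htt _ _ htp (T_fix ht))

/-- `T` is transitive off the base point -/
theorem T_trans (hS : Setup T) {p p' : G ⧸ NT T} (hp : p ≠ x₀ T) (hp' : p' ≠ x₀ T) :
    ∃ s ∈ T, s • p = p' := by
  obtain ⟨w, hw2, hwH, rfl⟩ := exists_invol_to hS hp
  obtain ⟨w', hw2', hwH', rfl⟩ := exists_invol_to hS hp'
  obtain ⟨d', hd', hd1'⟩ := DD_ne_bot hS hwH'
  obtain ⟨d, hd, t, ht, hdt⟩ := H_decomp hS hwH (Subgroup.mem_inf.mp hd').1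
  have hdH := (Subgroup.mem_inf.mp hd).1
  have hd1 : d ≠ 1 := by
    rintro rfl
    rw [one_mul] at hdt
    exact hd1' (D_inf_T hS hwH' hd' (hdt ▸ ht))
  -- the map `s ↦ d⁻¹ s d s⁻¹` is a bijection of `T`
  let ψ : T → T := fun s => ⟨(d⁻¹ * (s : G) * d⁻¹⁻¹) * (s : G)⁻¹,
    Subgroup.mul_mem _ (conj_mem_T (Subgroup.inv_mem _ hdH) s.2) (Subgroup.inv_mem _ s.2)⟩
  have hψ : Function.Injective ψ := by
    intro s s' h
    have h1 : (d⁻¹ * (s : G) * d⁻¹⁻¹) * (s : G)⁻¹ = (d⁻¹ * (s' : G) * d⁻¹⁻¹) * (s' : G)⁻¹ :=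
      congrArg Subtype.val h
    rw [inv_inv] at h1
    -- `s'⁻¹ s` commutes with `d`
    have hm : (s' : G)⁻¹ * s ∈ T := Subgroup.mul_mem _ (Subgroup.inv_mem _ s'.2) s.2
    have hc1 : (s : G)⁻¹ * s' = (s' : G) * (s : G)⁻¹ := comm hS.hC T (Subgroup.inv_mem _ s.2) s'.2
    have h2 : d⁻¹ * ((s' : G)⁻¹ * s) * d = (s' : G)⁻¹ * s := by
      calc d⁻¹ * ((s' : G)⁻¹ * s) * d
          = (d⁻¹ * (s' : G) * d)⁻¹ * ((d⁻¹ * (s : G) * d) * (s : G)⁻¹) * s := by group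
        _ = (d⁻¹ * (s' : G) * d)⁻¹ * ((d⁻¹ * (s' : G) * d) * (s' : G)⁻¹) * s := by rw [h1]
        _ = (s' : G)⁻¹ * s := by group
    have h3 : d * ((s' : G)⁻¹ * s) = ((s' : G)⁻¹ * s) * d := by
      calc d * ((s' : G)⁻¹ * s) = d * (d⁻¹ * ((s' : G)⁻¹ * s) * d) := by rw [h2]
        _ = ((s' : G)⁻¹ * s) * d := by group
    by_contra hne
    have hm1 : (s' : G)⁻¹ * s ≠ 1 := by
      intro h
      apply hne
      apply Subtype.ext
      calc (s : G) = s' * ((s' : G)⁻¹ * s) := by group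
        _ = s' := by rw [h, mul_one]
    exact hd1 (D_semireg hS hwH hd hm hm1 h3)
  obtain ⟨s, hs⟩ := Finite.surjective_of_injective hψ ⟨t, ht⟩
  have hs' : (d⁻¹ * (s : G) * d⁻¹⁻¹) * (s : G)⁻¹ = t := congrArg Subtype.val hs
  rw [inv_inv] at hs'
  have hd's : d' = (s : G) * d * (s : G)⁻¹ := by
    rw [hdt, ← hs']; group
  refine ⟨s, s.2, ?_⟩
  by_contra hne
  apply hd1'
  have hsp : (s : G) • w • x₀ T ≠ x₀ T := by
    intro h
    have h4 : (s : G) • w • x₀ T = (s : G) • x₀ T := by rw [h, T_fix s.2]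
    exact hp (smul_left_cancel _ h4)
  apply eq_one_of_fix_three₀ hS hsp hp' hne (mem_DD_iff.mp hd').1 _ (mem_DD_iff.mp hd').2
  rw [hd's]
  exact conj_smul_fix (mem_DD_iff.mp hd).2 _

/-- the two-point stabiliser is transitive on the remaining points -/
theorem D_trans_points (hS : Setup T) {p q q' : G ⧸ NT T} (hp : p ≠ x₀ T) (hq : q ≠ x₀ T)
    (hq' : q' ≠ x₀ T) (hqp : q ≠ p) (hqp' : q' ≠ p) :
    ∃ d : G, d • x₀ T = x₀ T ∧ d • p = p ∧ d • q = q' := by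
  obtain ⟨w, hw2, hwH, rfl⟩ := exists_invol_to hS hp
  obtain ⟨t, ht, rfl⟩ := T_trans hS hp hq
  obtain ⟨t', ht', rfl⟩ := T_trans hS hp hq'
  have ht1 : t ≠ 1 := by
    rintro rfl
    exact hqp (one_smul _ _)
  have ht1' : t' ≠ 1 := by
    rintro rfl
    exact hqp' (one_smul _ _)
  obtain ⟨d, hd, hdt⟩ := D_trans hS hwH ht ht1 ht' ht1'
  obtain ⟨h1, h2⟩ := mem_DD_iff.mp hd
  refine ⟨d, h1, h2, ?_⟩
  calc d • t • w • x₀ T = (d * t * d⁻¹) • d • w • x₀ T := by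
        rw [← mul_smul, ← mul_smul, ← mul_smul, ← mul_smul]; congr 1; group
    _ = t' • w • x₀ T := by rw [hdt, h2]

theorem three_trans (hS : Setup T) {x₁ x₂ x₃ y₁ y₂ y₃ : G ⧸ NT T} (h12 : x₁ ≠ x₂)
    (h13 : x₁ ≠ x₃) (h23 : x₂ ≠ x₃) (k12 : y₁ ≠ y₂) (k13 : y₁ ≠ y₃) (k23 : y₂ ≠ y₃) :
    ∃ g : G, g • x₁ = y₁ ∧ g • x₂ = y₂ ∧ g • x₃ = y₃ := by
  obtain ⟨a, ha⟩ := exists_smul_eq G x₁ (x₀ T)
  obtain ⟨b, hb⟩ := exists_smul_eq G y₁ (x₀ T)
  have hx2 : a • x₂ ≠ x₀ T := fun h => h12 (smul_left_cancel a (ha.trans h.symm))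
  have hx3 : a • x₃ ≠ x₀ T := fun h => h13 (smul_left_cancel a (ha.trans h.symm))
  have hy2 : b • y₂ ≠ x₀ T := fun h => k12 (smul_left_cancel b (hb.trans h.symm))
  have hy3 : b • y₃ ≠ x₀ T := fun h => k13 (smul_left_cancel b (hb.trans h.symm))
  obtain ⟨t, ht, htx⟩ := T_trans hS hx2 hy2
  have hx3' : t • a • x₃ ≠ x₀ T := by
    intro h
    have h4 : t • a • x₃ = t • x₀ T := by rw [h, T_fix ht]
    exact hx3 (smul_left_cancel _ h4)
  have hx32 : t • a • x₃ ≠ b • y₂ := by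
    rw [← htx]
    intro h
    exact h23 (smul_left_cancel a (smul_left_cancel t h)).symm
  have hy32 : b • y₃ ≠ b • y₂ := fun h => k23 (smul_left_cancel b h).symm
  obtain ⟨d, hd0, hd1, hd2⟩ := D_trans_points hS hy2 hx3' hy3 hx32 hy32
  refine ⟨b⁻¹ * d * t * a, ?_, ?_, ?_⟩
  · rw [mul_smul, mul_smul, mul_smul, ha, T_fix ht, hd0, ← hb, inv_smul_smul]
  · rw [mul_smul, mul_smul, mul_smul, htx, hd1, inv_smul_smul]
  · rw [mul_smul, mul_smul, mul_smul, hd2, inv_smul_smul]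

end CIT

end Cfsg.Agent.Lib.Helper8
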