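import Mathlib
import Cfsg.Agent.Lib.Helper8.QD2
import Cfsg.Prelude.Def_Transfer

/-!
# Elementary abelian subgroups of order 8 in central extensions of dihedral / quasi-dihedral groups
-/

set_option autoImplicit false

namespace Cfsg.Agent.Lib.Helper8.E8C

open Cfsg.Agent.Lib.Helper8.QDR

/-- Every four-group (given by two generators) is self-centralizing. -/
def SC (H : Type*) [Group H] : Prop :=
  ∀ u v x : H, u ≠ 1 → v ≠ 1 → u ≠ v → u * u = 1 → v * v = 1 → u * v = v * u →
    x * u = u * x → x * v = v * x → x = 1 ∨ x = u ∨ x = v ∨ x = u * v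

theorem SC.congr {H D : Type*} [Group H] [Group D] (e : H ≃* D) (h : SC D) : SC H := by
  intro u v x hu hv huv hu2 hv2 hc hxu hxv
  have := h (e u) (e v) (e x) (by simpa using hu) (by simpa using hv) (by simpa using huv)
    (by rw [← map_mul, hu2, map_one]) (by rw [← map_mul, hv2, map_one])
    (by rw [← map_mul, hc, map_mul]) (by rw [← map_mul, hxu, map_mul])
    (by rw [← map_mul, hxv, map_mul])
  rcases this with h | h | h | h
  · left; exact e.injective (by simpa using h)
  · right; left; exact e.injective h
  · right; right; left; exact e.injective h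
  · right; right; right; exact e.injective (by rw [h, map_mul])

theorem tors {m : ℕ} [NeZero m] {a b : ZMod m} (ha : 2 * a = 0) (hb : 2 * b = 0) (ha0 : a ≠ 0) :
    b = 0 ∨ b = a := by
  have key : ∀ c : ZMod m, 2 * c = 0 → c ≠ 0 → 2 * c.val = m := by
    intro c hc hc0
    have h1 : ((2 * c.val : ℕ) : ZMod m) = 0 := by
      push_cast; rw [ZMod.natCast_zmod_val]; exact hc
    rw [ZMod.natCast_eq_zero_iff] at h1
    obtain ⟨k, hk⟩ := h1
    have h2 := ZMod.val_lt c
    have h3 : c.val ≠ 0 := by rwa [Ne, ZMod.val_eq_zero]
    have : k = 1 := by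
      rcases k with _ | _ | k
      · omega
      · rfl
      · exfalso; nlinarith
    subst this; omega
  by_cases hb0 : b = 0
  · left; exact hb0
  · right
    apply ZMod.val_injective
    have h1 := key a ha ha0
    have h2 := key b hb hb0
    omega

theorem SC_dihedral (m : ℕ) [NeZero m] : SC (DihedralGroup m) := by
  intro u v x hu hv huv hu2 hv2 hc hxu hxv
  rcases u with i | i <;> rcases v with j | j <;> rcases x with k | k <;>
  simp only [DihedralGroup.r_mul_r, DihedralGroup.r_mul_sr, DihedralGroup.sr_mul_r,
    DihedralGroup.sr_mul_sr, DihedralGroup.one_def, DihedralGroup.r.injEq,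
    DihedralGroup.sr.injEq, reduceCtorEq, ne_eq, false_or, or_false, not_false_eq_true] at *
  · rcases tors (a := i) (b := j) (by linear_combination hu2) (by linear_combination hv2) hu
      with h | h
    · exact absurd h hv
    · exact absurd h.symm huv
  · rcases tors (a := i) (b := j) (by linear_combination hu2) (by linear_combination hv2) hu
      with h | h
    · exact absurd h hv
    · exact absurd h.symm huv
  · exact tors (by linear_combination hu2) (by linear_combination -hxv) hu
  · rcases tors (a := i) (b := k - j) (by linear_combination hu2) (by linear_combination -hxv) hu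
      with h | h
    · left; linear_combination h
    · right; linear_combination h + hu2
  · exact tors (by linear_combination hv2) (by linear_combination -hxu) hv
  · rcases tors (a := j) (b := k - i) (by linear_combination hv2) (by linear_combination -hxu) hv
      with h | h
    · left; linear_combination h
    · right; linear_combination h
  · exact tors (a := j - i) (by linear_combination hc) (by linear_combination -hxu)
      (fun h => huv (by linear_combination -h))
  · rcases tors (a := j - i) (b := k - i) (by linear_combination hc) (by linear_combination -hxu)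
      (fun h => huv (by linear_combination -h)) with h | h
    · left; linear_combination h
    · right; linear_combination h

theorem SC_qd {S : Type*} [Group S] {n : ℕ} (Q : QD S n) : SC S := by
  have aux : ∀ (i : ZMod (2 ^ n)) (v x : S), v ≠ 1 → v ≠ Q.b i → Q.b i * Q.b i = 1 →
      v * Q.b i = Q.b i * v → x * Q.b i = Q.b i * x →
      x = 1 ∨ x = Q.b i ∨ x = v ∨ x = Q.b i * v := by
    intro i v x hv hvu hu2 hc hx
    have hbz : Q.b (i + hh n) = Q.b i * Q.z := (Q.bz i).symm
    rw [Q.comm_b_iff] at hc hx
    rcases hc with h | h | h | h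
    · exact absurd h hv
    · subst h
      rcases hx with h | h | h | h
      · exact Or.inl h
      · exact Or.inr (Or.inr (Or.inl h))
      · exact Or.inr (Or.inl h)
      · exact Or.inr (Or.inr (Or.inr (h.trans hbz)))
    · exact absurd h hvu
    · have huv : Q.b i * v = Q.z := by rw [h, hbz, ← mul_assoc, hu2, one_mul]
      rcases hx with h' | h' | h' | h'
      · exact Or.inl h'
      · exact Or.inr (Or.inr (Or.inr (h'.trans huv.symm)))
      · exact Or.inr (Or.inl h')
      · exact Or.inr (Or.inr (Or.inl (h'.trans h.symm)))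
  intro u v x hu hv huv hu2 hv2 hc hxu hxv
  rcases (Q.orderOf_eq_two_iff u).mp ((orderOf_eq_two_iff' u).mpr ⟨hu, hu2⟩) with h | ⟨k, h⟩
  · rcases (Q.orderOf_eq_two_iff v).mp ((orderOf_eq_two_iff' v).mpr ⟨hv, hv2⟩) with h' | ⟨k, h'⟩
    · exact absurd (h.trans h'.symm) huv
    · subst h'
      rcases aux (2 * k) u x hu huv hv2 hc hxv with h1 | h1 | h1 | h1
      · exact Or.inl h1
      · exact Or.inr (Or.inr (Or.inl h1))
      · exact Or.inr (Or.inl h1)
      · exact Or.inr (Or.inr (Or.inr (h1.trans hc.symm)))
  · subst h
    exact aux (2 * k) v x hv (Ne.symm huv) hu2 hc.symm hxu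

theorem main {R : Type*} [Group R] [Finite R] (t : R) (ht : orderOf t = 2)
    [(Subgroup.zpowers t).Normal] (hq : SC (R ⧸ Subgroup.zpowers t)) (A : Subgroup R)
    (hA : Cfsg.IsElementaryAbelian 2 A) (hA8 : Nat.card A = 8) (htA : t ∈ A) :
    Subgroup.centralizer (A : Set R) = A := by
  classical
  obtain ⟨hAc, hA2⟩ := hA
  have hcomm : ∀ a ∈ A, ∀ b ∈ A, a * b = b * a := by
    intro a ha b hb
    have := hAc.is_comm.comm ⟨a, ha⟩ ⟨b, hb⟩
    exact congrArg Subtype.val this
  obtain ⟨ht1, ht2⟩ := (orderOf_eq_two_iff' t).mp ht
  have hmem : ∀ x : R, x ∈ Subgroup.zpowers t → x = 1 ∨ x = t := by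
    intro x hx
    obtain ⟨k, rfl⟩ := Subgroup.mem_zpowers_iff.mp hx
    rcases Int.even_or_odd' k with ⟨c, rfl | rfl⟩
    · left; rw [zpow_mul, zpow_two, ht2, one_zpow]
    · right; rw [zpow_add, zpow_mul, zpow_two, ht2, one_zpow, one_mul, zpow_one]
  have hle : Subgroup.zpowers t ≤ A := by rwa [Subgroup.zpowers_le]
  have hbig : ∀ F : Finset R, F.card ≤ 4 → ∃ b ∈ A, b ∉ F := by
    intro F hF
    by_contra hcon
    push Not at hcon
    have : Nat.card A ≤ F.card := by
      have hsub : (A : Set R) ⊆ (F : Set R) := fun b hb => hcon b hb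
      calc Nat.card A = (A : Set R).ncard := rfl
        _ ≤ (F : Set R).ncard := Set.ncard_le_ncard hsub (Finset.finite_toSet F)
        _ = F.card := Set.ncard_coe_finset F
    omega
  obtain ⟨a, haA, haF⟩ := hbig {1, t} (Finset.card_le_two.trans (by norm_num))
  obtain ⟨b, hbA, hbF⟩ := hbig {1, t, a, t * a} Finset.card_le_four
  simp only [Finset.mem_insert, Finset.mem_singleton, not_or] at haF hbF
  have hsq : ∀ y ∈ A, y * y = 1 := fun y hy => by rw [← pow_two]; exact hA2 y hy
  have hlift : ∀ x y : R, y ∈ A →
      (QuotientGroup.mk x : R ⧸ Subgroup.zpowers t) = QuotientGroup.mk y → x ∈ A := by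
    intro x y hy h
    have h1 : y⁻¹ * x ∈ Subgroup.zpowers t := QuotientGroup.eq.mp h.symm
    have : x = y * (y⁻¹ * x) := by group
    rw [this]
    exact mul_mem hy (hle h1)
  apply le_antisymm
  · intro x hx
    rw [Subgroup.mem_centralizer_iff] at hx
    have h := hq (QuotientGroup.mk a) (QuotientGroup.mk b) (QuotientGroup.mk x)
      (by
        intro h
        rcases hmem a ((QuotientGroup.eq_one_iff a).mp h) with h | h
        · exact haF.1 h
        · exact haF.2 h)
      (by
        intro h
        rcases hmem b ((QuotientGroup.eq_one_iff b).mp h) with h | h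
        · exact hbF.1 h
        · exact hbF.2.1 h)
      (by
        intro h
        rcases hmem _ (QuotientGroup.eq.mp h) with h | h
        · exact hbF.2.2.1 (by rw [inv_mul_eq_one] at h; exact h.symm)
        · apply hbF.2.2.2
          rw [inv_mul_eq_iff_eq_mul] at h
          rw [h]; exact hcomm a haA t htA)
      (by rw [← QuotientGroup.mk_mul, hsq a haA]; rfl)
      (by rw [← QuotientGroup.mk_mul, hsq b hbA]; rfl)
      (by rw [← QuotientGroup.mk_mul, hcomm a haA b hbA]; rfl)
      (by rw [← QuotientGroup.mk_mul, ← hx a haA]; rfl)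
      (by rw [← QuotientGroup.mk_mul, ← hx b hbA]; rfl)
    rcases h with h | h | h | h
    · exact hlift x 1 (one_mem _) h
    · exact hlift x a haA h
    · exact hlift x b hbA h
    · exact hlift x (a * b) (mul_mem haA hbA) h
  · intro x hx
    rw [Subgroup.mem_centralizer_iff]
    intro y hy
    exact hcomm y hy x hx

end Cfsg.Agent.Lib.Helper8.E8C
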