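import Mathlib
import Cfsg.Prelude.Def_TwoFusion
import Cfsg.Agent.Lib.Helper8.Isolated
import Cfsg.Agent.S1184

/-!
# Isolated involutions: midpoints
-/

namespace Cfsg.Agent.Lib.Helper8

variable {G : Type*} [Group G]

/-- `w` is a conjugate of `z`. -/
def IsC (z w : G) : Prop := ∃ g : G, g * z * g⁻¹ = w

theorem IsC.refl (z : G) : IsC z z := ⟨1, by simp⟩

theorem IsC.conj {z w : G} (h : IsC z w) (x : G) : IsC z (x * w * x⁻¹) := by
  obtain ⟨g, rfl⟩ := h
  exact ⟨x * g, by group⟩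

theorem IsC.trans' {z a b : G} (ha : IsC z a) (hb : IsC z b) : IsC a b := by
  obtain ⟨g, rfl⟩ := ha
  obtain ⟨h, rfl⟩ := hb
  exact ⟨h * g⁻¹, by group⟩

theorem IsC.iso {z w : G} (hz : Cfsg.IsIsolatedInvolution z) (h : IsC z w) :
    Cfsg.IsIsolatedInvolution w := by
  obtain ⟨g, rfl⟩ := h
  exact IsIso.conj hz g

theorem exists_sqrt_of_odd {k : G} (h : Odd (orderOf k)) : ∃ n : ℕ, k ^ n * k ^ n = k := by
  obtain ⟨n, hn⟩ := h
  refine ⟨n + 1, ?_⟩
  rw [← pow_add]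
  have : n + 1 + (n + 1) = (2 * n + 1) + 1 := by ring
  rw [this, pow_succ, ← hn, pow_orderOf_eq_one, one_mul]

variable [Finite G] {z : G}

theorem mid_unique (hz : Cfsg.IsIsolatedInvolution z) {a m m' : G} (ha : IsC z a) (hm : IsC z m)
    (hm' : IsC z m') (h : m * a * m⁻¹ = m' * a * m'⁻¹) : m = m' := by
  have haiso := ha.iso hz
  obtain ⟨g, hg⟩ := ha.trans' hm
  obtain ⟨g', hg'⟩ := ha.trans' hm'
  by_contra hne
  have hne' : g' * a * g'⁻¹ ≠ g * a * g⁻¹ := by rw [hg, hg']; exact fun h => hne h.symm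
  apply Cfsg.Agent.S1184.result a haiso g' g hne'
  rw [hg, hg']
  have hm'i : m'⁻¹ = m' := IsIso.inv (hm'.iso hz)
  show m' * m * a = a * (m' * m)
  calc m' * m * a = m' * (m * a * m⁻¹) * m := by group
    _ = m' * (m' * a * m'⁻¹) * m := by rw [h]
    _ = (m' * m') * a * (m'⁻¹ * m) := by group
    _ = a * (m' * m) := by rw [IsIso.mul_self (hm'.iso hz), hm'i, one_mul]

theorem mid_exists (hz : Cfsg.IsIsolatedInvolution z) {a b : G} (ha : IsC z a) (hb : IsC z b) :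
    ∃ m, IsC z m ∧ m * a * m⁻¹ = b := by
  have haiso := ha.iso hz
  obtain ⟨g, hg⟩ := ha.trans' hb
  obtain ⟨k, -, hodd, hinv, hk⟩ := IsIso.exists_inverted haiso g
  obtain ⟨n, hn⟩ := exists_sqrt_of_odd hodd
  have hl := pow_inverted hinv n
  refine ⟨k ^ n * a * (k ^ n)⁻¹, ha.conj _, ?_⟩
  rw [conj_of_inverted hl, hn, ← hg, ← hk]
  have := IsIso.mul_self haiso
  calc k * a * a * (k * a)⁻¹ = k * (a * a) * a⁻¹ * k⁻¹ := by group
    _ = k * a * k⁻¹ := by rw [this, IsIso.inv haiso, mul_one]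

/-- the inverted element attached to a conjugate, commuting with everything that commutes with
both `z` and the conjugate -/
theorem IsC.exists_inverted (hz : Cfsg.IsIsolatedInvolution z) {w : G} (hw : IsC z w) :
    ∃ k : G, Odd (orderOf k) ∧ z * k * z⁻¹ = k⁻¹ ∧ k * z * k⁻¹ = w ∧
      ∀ x : G, Commute x z → Commute x w → Commute k x := by
  obtain ⟨g, rfl⟩ := hw
  obtain ⟨k, hk, h1, h2, h3⟩ := IsIso.exists_inverted hz g
  refine ⟨k, h1, h2, h3, ?_⟩
  intro x hxz hxw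
  obtain ⟨n, rfl⟩ := Subgroup.mem_zpowers_iff.mp hk
  exact ((hxw.mul_right hxz).zpow_right n).symm

end Cfsg.Agent.Lib.Helper8
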