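import Mathlib
import Cfsg.Agent.Lib.Helper8.O168b

/-!
# Four-subgroups of a simple group of order 168, II
-/

set_option autoImplicit false

namespace Cfsg.Agent.Lib.Helper8.O168

open Cfsg.Agent.H14 DihedralGroup

theorem struct4 {G : Type*} [Group G] [Finite G] (S : Sylow 2 G)
    (e : (S : Subgroup G) ≃* DihedralGroup (2 ^ 2)) :
    ∃ z : G, z ≠ 1 ∧ z ∈ (S : Subgroup G) ∧ (∀ t ∈ (S : Subgroup G), t * z = z * t) ∧
      ∃ U₀ U₁ : Subgroup G, IsKleinFour U₀ ∧ IsKleinFour U₁ ∧ U₀ ≤ S ∧ U₁ ≤ S ∧ U₀ ≠ U₁ ∧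
        ∀ V : Subgroup G, V ≤ S → IsKleinFour V → z ∈ V ∧ (V = U₀ ∨ V = U₁) := by
  haveI : Fact (Nat.Prime 2) := ⟨Nat.prime_two⟩
  have hn1 : 1 ≤ 2 := by omega
  set ι : DihedralGroup (2 ^ 2) →* G := (S : Subgroup G).subtype.comp e.symm.toMonoidHom with hι
  have hinj : Function.Injective ι := (S : Subgroup G).subtype_injective.comp e.symm.injective
  have hmem : ∀ x, ι x ∈ (S : Subgroup G) := fun x => (e.symm x).2
  have hsurj : ∀ g ∈ (S : Subgroup G), ∃ x, ι x = g := by
    intro g hg
    refine ⟨e ⟨g, hg⟩, ?_⟩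
    simp [hι]
  set h := QDR.hh 2 with hh
  have hh2 : h + h = 0 := QDR.hh_add_hh hn1
  have hneg : -h = h := QDR.neg_hh hn1
  have hne : h ≠ 0 := QDR.hh_ne hn1
  have hh2' : h = 2 := by rw [hh]; unfold QDR.hh; norm_num
  have h4 : (2 : ZMod (2 ^ 2)) ^ 2 = 0 := QDR.two_pow_eq_zero 2
  set z := ι (r h) with hz
  have hzz : z * z = 1 := by
    rw [hz, ← map_mul, r_mul_r, hh2, ← one_def, map_one]
  have hz1 : z ≠ 1 := by
    intro hc
    rw [hz, ← map_one ι] at hc
    have := hinj hc
    rw [one_def] at this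
    injection this with h'
    exact hne h'
  have hss : ∀ j, ι (sr j) * ι (sr j) = 1 := by
    intro j
    rw [← map_mul, sr_mul_sr, sub_self, ← one_def, map_one]
  have hs1 : ∀ j, ι (sr j) ≠ 1 := by
    intro j hc
    rw [← map_one ι] at hc
    have := hinj hc
    rw [one_def] at this
    cases this
  have hzs : ∀ j, z * ι (sr j) = ι (sr j) * z := by
    intro j
    rw [hz, ← map_mul, ← map_mul, r_mul_sr, sr_mul_r, sub_eq_add_neg, hneg]
  have hzne : ∀ j, z ≠ ι (sr j) := by
    intro j hc
    have := hinj hc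
    cases this
  have hK : ∀ j, IsKleinFour (Subgroup.closure ({z, ι (sr j)} : Set G)) := fun j =>
    isKleinFour_closure hzz (hss j) (hzs j) hz1 (hs1 j) (hzne j)
  have hUS : ∀ j, Subgroup.closure ({z, ι (sr j)} : Set G) ≤ S := by
    intro j
    rw [Subgroup.closure_le]
    intro x hx
    simp only [Set.mem_insert_iff, Set.mem_singleton_iff] at hx
    rcases hx with rfl | rfl
    · exact hmem _
    · exact hmem _
  refine ⟨z, hz1, hmem _, ?_, Subgroup.closure ({z, ι (sr 0)} : Set G),
    Subgroup.closure ({z, ι (sr 1)} : Set G), hK 0, hK 1, hUS 0, hUS 1, ?_, ?_⟩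
  · intro t ht
    obtain ⟨x, rfl⟩ := hsurj t ht
    rcases x with i | i
    · rw [hz, ← map_mul, ← map_mul, r_mul_r, r_mul_r, add_comm]
    · exact (hzs i).symm
  · intro heq
    have h1 : ι (sr 1) ∈ Subgroup.closure ({z, ι (sr 0)} : Set G) := by
      rw [heq]; exact Subgroup.subset_closure (by simp)
    rcases (mem_closure_four hzz (hss 0) (hzs 0) _).mp h1 with h2 | h2 | h2 | h2
    · exact hs1 1 h2
    · exact hzne 1 h2.symm
    · have h3 := hinj h2
      injection h3 with h5
      have h6 := congrArg (QDR.par 2 hn1) h5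
      rw [map_one, map_zero] at h6
      exact DK.zmod_two_one_ne h6
    · rw [hz, ← map_mul, r_mul_sr] at h2
      have h3 := hinj h2
      injection h3 with h5
      have h6 := congrArg (QDR.par 2 hn1) h5
      rw [map_one, map_sub, map_zero, hh2', QDR.par_two, sub_zero] at h6
      exact DK.zmod_two_one_ne h6
  · intro V' hy hV'
    have hrot : ∀ i, ι (r i) ∈ V' → ι (r i) ≠ 1 → ι (r i) = z := by
      intro i hi hi1
      have h1 := klein_mul_self' hV' hi
      rw [← map_mul, r_mul_r, ← map_one ι] at h1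
      have h2 := hinj h1
      rw [one_def] at h2
      injection h2 with h3
      rcases QDR.two_mul_eq_zero hn1 (i := i) (by rw [two_mul]; exact h3) with rfl | rfl
      · exact absurd (by rw [← one_def, map_one]) hi1
      · rfl
    obtain ⟨a, b, ha, hb, ha1, hb1, hab⟩ := klein_exists_gens hV'
    obtain ⟨xa, rfl⟩ := hsurj a (hy ha)
    obtain ⟨xb, rfl⟩ := hsurj b (hy hb)
    have hex : z ∈ V' ∧ ∃ i, ι (sr i) ∈ V' := by
      rcases xa with i | i
      · have hiz := hrot i ha ha1
        rcases xb with j | j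
        · exact absurd (hiz.trans (hrot j hb hb1).symm) hab
        · exact ⟨hiz ▸ ha, j, hb⟩
      · refine ⟨?_, i, ha⟩
        rcases xb with j | j
        · exact (hrot j hb hb1) ▸ hb
        · have hm := mul_mem ha hb
          rw [← map_mul, sr_mul_sr] at hm
          have hne1 : ι (r (j - i)) ≠ 1 := by
            intro hc
            rw [← map_one ι] at hc
            have h2 := hinj hc
            rw [one_def] at h2
            injection h2 with h3
            apply hab
            rw [sub_eq_zero.mp h3]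
          exact (hrot _ hm hne1) ▸ hm
    obtain ⟨hzV, i, hi⟩ := hex
    refine ⟨hzV, ?_⟩
    have hVe : V' = Subgroup.closure ({z, ι (sr i)} : Set G) :=
      klein_eq_closure hV' hzV hi hz1 (hs1 i) (hzne i)
    have hfin : ∀ j : ZMod (2 ^ 2), (i = j ∨ i = j + h) →
        V' = Subgroup.closure ({z, ι (sr j)} : Set G) := by
      intro j hj
      have hzj : z ∈ Subgroup.closure ({z, ι (sr j)} : Set G) := Subgroup.subset_closure (by simp)
      have hsj : ι (sr j) ∈ Subgroup.closure ({z, ι (sr j)} : Set G) :=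
        Subgroup.subset_closure (by simp)
      have hij : ι (sr i) ∈ Subgroup.closure ({z, ι (sr j)} : Set G) := by
        rcases hj with rfl | rfl
        · exact hsj
        · have : ι (sr (j + h)) = ι (sr j) * z := by rw [hz, ← map_mul, sr_mul_r]
          rw [this]; exact mul_mem hsj hzj
      refine Cfsg.Agent.H12.eq_of_le_of_card_eq ?_ (by rw [hV'.card_four, (hK j).card_four])
      rw [hVe, Subgroup.closure_le]
      intro x hx
      simp only [Set.mem_insert_iff, Set.mem_singleton_iff] at hx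
      rcases hx with rfl | rfl
      · exact hzj
      · exact hij
    rcases QDR.even_or_odd i with ⟨k, hk⟩ | ⟨k, hk⟩ <;> rcases QDR.even_or_odd k with ⟨l, hl⟩ | ⟨l, hl⟩
    · exact Or.inl (hfin 0 (Or.inl (by rw [hk, hl]; linear_combination l * h4)))
    · exact Or.inl (hfin 0 (Or.inr (by rw [hk, hl]; linear_combination l * h4 - hh2')))
    · exact Or.inr (hfin 1 (Or.inl (by rw [hk, hl]; linear_combination l * h4)))
    · exact Or.inr (hfin 1 (Or.inr (by rw [hk, hl]; linear_combination l * h4 - hh2')))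

section

variable {G : Type*} [Group G] [Finite G] [IsSimpleGroup G]

theorem norm_S4 (h : Nat.card G = 168) (U : Subgroup G) (hU : IsKleinFour U) :
    Nonempty (↥(Subgroup.normalizer (U : Set G)) ≃* Equiv.Perm (Fin 4)) := by
  haveI : Fact (Nat.Prime 2) := ⟨Nat.prime_two⟩
  obtain ⟨T, hUT⟩ := (DK.klein_isPGroup hU).exists_le_sylow
  obtain ⟨⟨e⟩, hN, hcen⟩ := main h T
  have hT8 := card8 h T
  obtain ⟨z, hz1, hzT, hzc, U₀, U₁, -, -, -, -, -, hV⟩ := struct4 T e
  have hzU := (hV U hUT hU).1
  have hCz := hcen z hzT hz1 hzc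
  have hTN : (T : Subgroup G) ≤ Subgroup.normalizer (U : Set G) :=
    le_normalizer_of_card hUT hU.card_four hT8
  have hCT : Subgroup.centralizer (U : Set G) ≤ T := by
    rw [← hCz]; exact Subgroup.centralizer_le (by simpa using hzU)
  have hCN : Subgroup.centralizer (U : Set G) ≤ Subgroup.normalizer (U : Set G) := hCT.trans hTN
  have h1 : Nat.card (Subgroup.centralizer (U : Set G)) *
      (Subgroup.centralizer (U : Set G)).relIndex (Subgroup.normalizer (U : Set G)) =
      Nat.card (Subgroup.normalizer (U : Set G)) := by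
    have := Subgroup.relIndex_mul_relIndex ⊥ _ _ bot_le hCN
    rwa [Subgroup.relIndex_bot_left, Subgroup.relIndex_bot_left] at this
  have hcardN : Nat.card (Subgroup.normalizer (U : Set G)) ∣ 24 := by
    have h2 : Nat.card (Subgroup.centralizer (U : Set G)) ∣ 8 := hT8 ▸ Subgroup.card_dvd_of_le hCT
    have h3 := relIndex_dvd hU
    have h4 : Nat.card (Subgroup.normalizer (U : Set G)) ∣ 8 * 24 := h1 ▸ mul_dvd_mul h2 h3
    have h5 : Nat.card (Subgroup.normalizer (U : Set G)) ∣ 168 :=
      h ▸ Subgroup.card_subgroup_dvd_card _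
    have h6 := Nat.dvd_gcd h4 h5
    norm_num at h6
    exact h6
  have h8N : 8 ∣ Nat.card (Subgroup.normalizer (U : Set G)) := hT8 ▸ Subgroup.card_dvd_of_le hTN
  have hne8 : Nat.card (Subgroup.normalizer (U : Set G)) ≠ 8 := by
    intro h8
    have hNT : Subgroup.normalizer (U : Set G) = T :=
      (Subgroup.eq_of_le_of_card_ge hTN (by rw [h8, hT8])).symm
    have hA : ∀ H : Subgroup G, H.index ≠ 2 := by
      intro H hH
      haveI := Subgroup.normal_of_index_eq_two hH
      rcases (inferInstance : H.Normal).eq_bot_or_eq_top with rfl | rfl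
      · rw [Subgroup.index_bot, h] at hH; omega
      · rw [Subgroup.index_top] at hH; omega
    rcases (Cfsg.Agent.S1255.result T 4 (by norm_num) e).mp ⟨hA, not_isolated h⟩ with hC | hD
    · obtain ⟨a, haU, ha1, haz⟩ := klein_exists_ne hU z
      have hoa : orderOf a = 2 := orderOf_eq_prime (by rw [sq]; exact klein_mul_self' hU haU) ha1
      have hoz : orderOf z = 2 := orderOf_eq_prime (by rw [sq]; exact klein_mul_self' hU hzU) hz1
      obtain ⟨g, hg⟩ := isConj_iff.mp (hC z a hoz hoa)
      have hCa : Nat.card (Subgroup.centralizer ({a} : Set G)) = 8 := by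
        rw [← hg, ← cj_centralizer_singleton, card_cj, hCz, hT8]
      have hUCa : U ≤ Subgroup.centralizer ({a} : Set G) := by
        intro x hx
        rw [Subgroup.mem_centralizer_singleton_iff]
        exact klein_comm' hU hx haU
      have hKN := le_normalizer_of_card hUCa hU.card_four hCa
      have hKT : Subgroup.centralizer ({a} : Set G) = T := by
        rw [← hNT]; exact Subgroup.eq_of_le_of_card_ge hKN (by rw [h8, hCa])
      apply not_comm h T
      have hac : ∀ t ∈ (T : Subgroup G), t * a = a * t := by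
        intro t ht
        have : t ∈ Subgroup.centralizer ({a} : Set G) := by rw [hKT]; exact ht
        exact Subgroup.mem_centralizer_singleton_iff.mp this
      refine lemB hT8 (u := ⟨z, hzT⟩) (u' := ⟨a, hUT haU⟩) ?_ ?_ ?_ ?_ ?_ ?_ ?_
      · exact Subtype.ext (klein_mul_self' hU hzU)
      · intro h1; exact hz1 (congrArg Subtype.val h1)
      · exact Subtype.ext (klein_mul_self' hU haU)
      · intro h1; exact ha1 (congrArg Subtype.val h1)
      · intro h1; exact haz (congrArg Subtype.val h1).symm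
      · intro y; exact Subtype.ext (hzc y y.2)
      · intro y; exact Subtype.ext (hac y y.2)
    · have h6 : (Subgroup.centralizer (U : Set G)).relIndex (Subgroup.normalizer (U : Set G)) = 6 := by
        have := hD U hUT hU
        rwa [if_neg (by have hS : Nat.card T = 8 := hT8; omega)] at this
      rw [h6, h8] at h1
      omega
  have h24 : Nat.card (Subgroup.normalizer (U : Set G)) = 24 := by
    obtain ⟨c, hc⟩ := h8N
    rw [hc] at hcardN hne8 ⊢
    have h3 : c ∣ 3 := Nat.dvd_of_mul_dvd_mul_left (by norm_num : 0 < 8) (by simpa using hcardN)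
    rcases (Nat.dvd_prime Nat.prime_three).mp h3 with rfl | rfl
    · simp at hne8
    · norm_num
  exact Cfsg.Agent.S1012.result h24
    (fun g hg => no_six h (g : G) (by rw [Subgroup.orderOf_coe]; exact hg))

theorem main7 (h : Nat.card G = 168) (T : Sylow 2 G) :
    Nat.card {U : Subgroup G // U ≤ (T : Subgroup G) ∧ IsKleinFour ↥U} = 2 ∧
    (∀ U W : Subgroup G, U ≤ (T : Subgroup G) → W ≤ (T : Subgroup G) → IsKleinFour ↥U →
      IsKleinFour ↥W → U ≠ W → ∀ g : G, U.map (MulAut.conj g).toMonoidHom ≠ W) ∧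
    ∀ U : Subgroup G, IsKleinFour ↥U →
      Nonempty (↥(Subgroup.normalizer (U : Set G)) ≃* Equiv.Perm (Fin 4)) := by
  obtain ⟨⟨e⟩, hN, hcen⟩ := main h T
  have hT8 := card8 h T
  obtain ⟨z, hz1, hzT, hzc, U₀, U₁, hK0, hK1, h0T, h1T, h01, hV⟩ := struct4 T e
  refine ⟨?_, ?_, fun U hU => norm_S4 h U hU⟩
  · have hset : {U : Subgroup G | U ≤ (T : Subgroup G) ∧ IsKleinFour U} = {U₀, U₁} := by
      ext U
      simp only [Set.mem_ofPred_eq, Set.mem_insert_iff, Set.mem_singleton_iff]
      constructor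
      · rintro ⟨h1, h2⟩; exact (hV U h1 h2).2
      · rintro (rfl | rfl)
        · exact ⟨h0T, hK0⟩
        · exact ⟨h1T, hK1⟩
    have hc : Nat.card {U : Subgroup G // U ≤ (T : Subgroup G) ∧ IsKleinFour U} =
        Set.ncard {U : Subgroup G | U ≤ (T : Subgroup G) ∧ IsKleinFour U} :=
      Nat.card_coe_set_eq _
    rw [hc, hset, Set.ncard_pair h01]
  · intro U W hU hW hUk hWk hne g hg
    have hTN := le_normalizer_of_card hU hUk.card_four hT8
    have hD : ∀ s ∈ (T : Subgroup G), Cfsg.Agent.H12.cj U s = U :=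
      fun s hs => Cfsg.Agent.H12.cj_eq_self (hTN hs)
    have hcj : Cfsg.Agent.H12.cj U g⁻¹ = W := by
      unfold Cfsg.Agent.H12.cj
      rw [inv_inv]; exact hg
    have key := DK.nc T e U hD U hU g⁻¹ (by rw [hcj]; exact hW) U le_rfl hUk.card_four
    rw [hcj] at key
    have hWU : W ≤ U := key.mp le_rfl
    exact hne (Cfsg.Agent.H12.eq_of_le_of_card_eq hWU (by rw [hWk.card_four, hUk.card_four])).symm

end

end Cfsg.Agent.Lib.Helper8.O168
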