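import Mathlib
import Cfsg.Agent.Lib.Helper8.O168c

/-!
# Subgroups isomorphic to `S₄` in a simple group of order 168
-/

set_option autoImplicit false

namespace Cfsg.Agent.Lib.Helper8.O168

open Cfsg.Agent.H14

variable {G : Type*} [Group G] [Finite G] [IsSimpleGroup G]

theorem card_norm (h : Nat.card G = 168) {U : Subgroup G} (hU : IsKleinFour U) :
    Nat.card (Subgroup.normalizer (U : Set G)) = 24 := by
  obtain ⟨φ⟩ := norm_S4 h U hU
  rw [Nat.card_congr φ.toEquiv, Nat.card_eq_fintype_card, Fintype.card_perm, Fintype.card_fin]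
  rfl

omit [IsSimpleGroup G] in
theorem coatom_of_card (h : Nat.card G = 168) {M : Subgroup G} (hM : Nat.card M = 24) :
    IsCoatom M := by
  constructor
  · rintro rfl
    rw [Subgroup.card_top, h] at hM; omega
  · intro H hlt
    have h1 : Nat.card M ∣ Nat.card H := Subgroup.card_dvd_of_le hlt.le
    have h2 : Nat.card H ∣ 168 := h ▸ Subgroup.card_subgroup_dvd_card H
    have h3 : Nat.card M < Nat.card H := by
      refine lt_of_le_of_ne (Subgroup.card_le_of_le hlt.le) ?_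
      intro he; exact hlt.ne (Cfsg.Agent.H12.eq_of_le_of_card_eq hlt.le he)
    rw [hM] at h1 h3
    obtain ⟨c, hc⟩ := h1
    have h4 : c ∣ 7 :=
      Nat.dvd_of_mul_dvd_mul_left (by norm_num : 0 < 24) (by rw [← hc]; simpa using h2)
    rcases (Nat.dvd_prime (by norm_num : Nat.Prime 7)).mp h4 with rfl | rfl
    · omega
    · exact Subgroup.eq_top_of_card_eq H (by rw [hc, h])

theorem klein_unique (h : Nat.card G = 168) {U V : Subgroup G} (hU : IsKleinFour U)
    (hV : IsKleinFour V)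
    (hN : Subgroup.normalizer (U : Set G) = Subgroup.normalizer (V : Set G)) : U = V := by
  haveI : Fact (Nat.Prime 2) := ⟨Nat.prime_two⟩
  by_contra hne
  have hVN : V ≤ Subgroup.normalizer (U : Set G) := by rw [hN]; exact Subgroup.le_normalizer
  have hp : IsPGroup 2 (V ⊔ U : Subgroup G) :=
    IsPGroup.to_sup_of_normal_right' (DK.klein_isPGroup hV) (DK.klein_isPGroup hU) hVN
  obtain ⟨T, hT⟩ := hp.exists_le_sylow
  have hT8 := card8 h T
  have hlt : U < V ⊔ U := by
    refine lt_of_le_of_ne le_sup_right ?_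
    intro he
    have hVU : V ≤ U := le_sup_left.trans he.ge
    exact hne (Cfsg.Agent.H12.eq_of_le_of_card_eq hVU (by rw [hV.card_four, hU.card_four])).symm
  have hK8 : Nat.card (V ⊔ U : Subgroup G) = 8 := by
    have h2 : Nat.card U < Nat.card (V ⊔ U : Subgroup G) := by
      refine lt_of_le_of_ne (Subgroup.card_le_of_le hlt.le) ?_
      intro he; exact hlt.ne (Cfsg.Agent.H12.eq_of_le_of_card_eq hlt.le he)
    have h3 : Nat.card (V ⊔ U : Subgroup G) ∣ 8 := hT8 ▸ Subgroup.card_dvd_of_le hT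
    have h5 := Nat.le_of_dvd (by norm_num) h3
    rw [hU.card_four] at h2
    generalize Nat.card (V ⊔ U : Subgroup G) = c at *
    interval_cases c <;> omega
  have hKT : V ⊔ U = T := Cfsg.Agent.H12.eq_of_le_of_card_eq hT (by rw [hK8, hT8])
  have hle : Subgroup.normalizer (U : Set G) ≤
      Subgroup.normalizer ((T : Subgroup G) : Set G) := by
    intro x hx
    have hxV : x ∈ Subgroup.normalizer (V : Set G) := hN ▸ hx
    rw [← Cfsg.Agent.H12.cj_eq_self_iff] at hx hxV ⊢
    rw [← hKT]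
    unfold Cfsg.Agent.H12.cj at *
    rw [Subgroup.map_sup, hx, hxV]
  rw [(main h T).2.1] at hle
  have := Subgroup.card_le_of_le hle
  rw [card_norm h hU, hT8] at this
  omega

theorem exists_klein_of_S4 (h : Nat.card G = 168) {M : Subgroup G}
    (φ : M ≃* Equiv.Perm (Fin 4)) :
    ∃ V : Subgroup G, IsKleinFour V ∧ M = Subgroup.normalizer (V : Set G) := by
  have h4 : Nat.card (Fin 4) = 4 := by simp
  haveI := alternatingGroup.characteristic_kleinFour h4
  obtain ⟨V₀, hV₀⟩ : ∃ V₀ : Subgroup (Equiv.Perm (Fin 4)), V₀ =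
      (alternatingGroup.kleinFour (Fin 4)).map (alternatingGroup (Fin 4)).subtype := ⟨_, rfl⟩
  have hV₀n : V₀.Normal := by rw [hV₀]; exact ConjAct.normal_of_characteristic_of_normal
  have hV₀c : Nat.card V₀ = 4 := by
    rw [hV₀, Subgroup.card_map_of_injective (Subgroup.subtype_injective _)]
    exact alternatingGroup.kleinFour_card_of_card_eq_four h4
  have hV₀s : ∀ v ∈ V₀, v * v = 1 := by
    rw [hV₀]
    rintro _ ⟨w, hw, rfl⟩
    have hk := alternatingGroup.kleinFour_isKleinFour h4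
    have := klein_mul_self' hk hw
    exact congrArg Subtype.val this
  obtain ⟨ι, hι⟩ : ∃ ι : Equiv.Perm (Fin 4) →* G, ι = M.subtype.comp φ.symm.toMonoidHom :=
    ⟨_, rfl⟩
  have hinj : Function.Injective ι := by
    rw [hι]; exact M.subtype_injective.comp φ.symm.injective
  have hVk : IsKleinFour (V₀.map ι) := by
    apply isKleinFour_of_card_of_sq
    · rw [Subgroup.card_map_of_injective hinj, hV₀c]
    · rintro _ ⟨w, hw, rfl⟩
      rw [← map_mul, hV₀s w hw, map_one]
  have hMN : M ≤ Subgroup.normalizer ((V₀.map ι : Subgroup G) : Set G) := by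
    intro m hm
    apply mem_normalizer_of_conj_mem
    rintro _ ⟨w, hw, rfl⟩
    refine ⟨φ ⟨m, hm⟩ * w * (φ ⟨m, hm⟩)⁻¹, hV₀n.conj_mem w hw _, ?_⟩
    have : ι (φ ⟨m, hm⟩) = m := by simp [hι]
    rw [map_mul, map_mul, map_inv, this]
  have hM24 : Nat.card M = 24 := by
    rw [Nat.card_congr φ.toEquiv, Nat.card_eq_fintype_card, Fintype.card_perm, Fintype.card_fin]
    rfl
  exact ⟨V₀.map ι, hVk, Cfsg.Agent.H12.eq_of_le_of_card_eq hMN (by rw [hM24, card_norm h hVk])⟩

omit [Finite G] [IsSimpleGroup G] in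
theorem norm_map (U : Subgroup G) (g : G) :
    Subgroup.normalizer ((U.map (MulAut.conj g).toMonoidHom : Subgroup G) : Set G) =
      (Subgroup.normalizer (U : Set G)).map (MulAut.conj g).toMonoidHom := by
  have := Cfsg.Agent.H12.normalizer_cj U g⁻¹
  unfold Cfsg.Agent.H12.cj at this
  rwa [inv_inv] at this

theorem partC (h : Nat.card G = 168) : ∃ M₁ M₂ : Subgroup G, IsCoatom M₁ ∧ IsCoatom M₂ ∧ Nonempty (↥M₁ ≃* Equiv.Perm (Fin 4)) ∧ Nonempty (↥M₂ ≃* Equiv.Perm (Fin 4)) ∧ (∀ g : G, M₂ ≠ M₁.map (MulAut.conj g).toMonoidHom) ∧ ∀ M : Subgroup G, IsCoatom M → Nonempty (↥M ≃* Equiv.Perm (Fin 4)) → ∃ g : G, M = M₁.map (MulAut.conj g).toMonoidHom ∨ M = M₂.map (MulAut.conj g).toMonoidHom := by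
  haveI : Fact (Nat.Prime 2) := ⟨Nat.prime_two⟩
  obtain ⟨T⟩ : Nonempty (Sylow 2 G) := inferInstance
  obtain ⟨⟨e⟩, -, -⟩ := main h T
  have hT8 := card8 h T
  obtain ⟨U₁, U₂, hK1, hK2, hnc, hall⟩ :=
    (DK.main T 4 e).2 (by have hS : Nat.card T = 8 := hT8; omega)
  refine ⟨Subgroup.normalizer (U₁ : Set G), Subgroup.normalizer (U₂ : Set G),
    coatom_of_card h (card_norm h hK1), coatom_of_card h (card_norm h hK2),
    norm_S4 h U₁ hK1, norm_S4 h U₂ hK2, ?_, ?_⟩
  · intro g hg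
    rw [← norm_map] at hg
    apply hnc
    exact ⟨g, (klein_unique h hK2 (DK.klein_map_conj hK1 g) hg).symm⟩
  · rintro M - ⟨φ⟩
    obtain ⟨V, hVk, rfl⟩ := exists_klein_of_S4 h φ
    rcases hall V hVk with ⟨x, hx⟩ | ⟨x, hx⟩
    · refine ⟨x⁻¹, Or.inl ?_⟩
      rw [← hx, norm_map, ← DK.map_conj_mul, inv_mul_cancel, DK.map_conj_one]
    · refine ⟨x⁻¹, Or.inr ?_⟩
      rw [← hx, norm_map, ← DK.map_conj_mul, inv_mul_cancel, DK.map_conj_one]

end Cfsg.Agent.Lib.Helper8.O168
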