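import Mathlib
import Cfsg.Agent.Lib.Helper8.O168d

/-!
# Simple groups of order 168: small maximal subgroups do not exist
-/

set_option autoImplicit false

namespace Cfsg.Agent.Lib.Helper8.O168

open Cfsg.Agent.H14

variable {G : Type*} [Group G] [Finite G] [IsSimpleGroup G]

omit [IsSimpleGroup G] in
theorem lift3 (h : Nat.card G = 168) {L : Subgroup G} (h3 : 3 ∣ Nat.card L) (Q : Sylow 3 L) :
    ∃ P : Sylow 3 G, ((Q : Subgroup L).map L.subtype) = P := by
  haveI : Fact (Nat.Prime 3) := ⟨Nat.prime_three⟩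
  have hp : IsPGroup 3 ((Q : Subgroup L).map L.subtype) := Q.2.map _
  obtain ⟨P, hP⟩ := hp.exists_le_sylow
  have hPc := sylow_card h P 1 56 (by norm_num) (by norm_num)
  have hQ3 : 3 ∣ Nat.card (Q : Subgroup L) := by
    have h1 := (Q : Subgroup L).card_mul_index
    rw [← h1] at h3
    exact (Nat.prime_three.dvd_mul.mp h3).resolve_right Q.not_dvd_index
  have hc : Nat.card ((Q : Subgroup L).map L.subtype) = Nat.card (Q : Subgroup L) :=
    Subgroup.card_map_of_injective L.subtype_injective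
  refine ⟨P, Cfsg.Agent.H12.eq_of_le_of_card_eq hP ?_⟩
  rw [hPc, pow_one]
  have h2 : Nat.card ((Q : Subgroup L).map L.subtype) ∣ 3 := by
    have := Subgroup.card_dvd_of_le hP
    rwa [hPc, pow_one] at this
  exact Nat.dvd_antisymm h2 (hc ▸ hQ3)

theorem card_norm3 (h : Nat.card G = 168) (P : Sylow 3 G) :
    Nat.card (Subgroup.normalizer ((P : Subgroup G) : Set G)) = 6 := by
  haveI : Fact (Nat.Prime 3) := ⟨Nat.prime_three⟩
  obtain ⟨-, n3, -⟩ := Cfsg.Agent.S1003.result h
  have h1 : Nat.card (Sylow 3 G) = (Subgroup.normalizer ((P : Subgroup G) : Set G)).index :=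
    P.card_eq_index_normalizer
  have h2 := (Subgroup.normalizer ((P : Subgroup G) : Set G)).card_mul_index
  rw [← h1, n3, h] at h2
  omega

omit [IsSimpleGroup G] in
theorem map_norm_le {L : Subgroup G} (Q : Subgroup L) :
    (Subgroup.normalizer (Q : Set L)).map L.subtype ≤
      Subgroup.normalizer ((Q.map L.subtype : Subgroup G) : Set G) := by
  rintro _ ⟨x, hx, rfl⟩
  apply mem_normalizer_of_conj_mem
  rintro _ ⟨q, hq, rfl⟩
  exact ⟨x * q * x⁻¹, (Subgroup.mem_normalizer_iff.mp hx q).mp hq, rfl⟩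

theorem exists_24 (h : Nat.card G = 168) (P : Sylow 3 G) :
    ∃ H : Subgroup G, Nat.card H = 24 ∧ Subgroup.normalizer ((P : Subgroup G) : Set G) ≤ H := by
  haveI : Fact (Nat.Prime 2) := ⟨Nat.prime_two⟩
  haveI : Fact (Nat.Prime 3) := ⟨Nat.prime_three⟩
  obtain ⟨T⟩ : Nonempty (Sylow 2 G) := inferInstance
  obtain ⟨⟨e⟩, -, -⟩ := main h T
  obtain ⟨z, -, -, -, U, -, hU, -, -, -, -, -⟩ := struct4 T e
  have h24 := card_norm h hU
  obtain ⟨H₀, hH₀⟩ : ∃ H₀ : Subgroup G, H₀ = Subgroup.normalizer (U : Set G) := ⟨_, rfl⟩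
  rw [← hH₀] at h24
  obtain ⟨Q⟩ : Nonempty (Sylow 3 H₀) := inferInstance
  obtain ⟨P', hP'⟩ := lift3 h (by rw [h24]; norm_num) Q
  have hn1 : Nat.card (Sylow 3 H₀) ≡ 1 [MOD 3] := card_sylow_modEq_one 3 H₀
  have hn2 : Nat.card (Sylow 3 H₀) =
      (Subgroup.normalizer ((Q : Subgroup H₀) : Set H₀)).index := Q.card_eq_index_normalizer
  have hn3 := (Subgroup.normalizer ((Q : Subgroup H₀) : Set H₀)).card_mul_index
  rw [← hn2, h24] at hn3
  have hge : 6 ≤ Nat.card (Subgroup.normalizer ((Q : Subgroup H₀) : Set H₀)) := by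
    generalize Nat.card (Subgroup.normalizer ((Q : Subgroup H₀) : Set H₀)) = c at *
    generalize Nat.card (Sylow 3 H₀) = n at *
    have hd : n ∣ 24 := Dvd.intro_left _ hn3
    have hn : n ≤ 24 := Nat.le_of_dvd (by norm_num) hd
    unfold Nat.ModEq at hn1
    interval_cases n <;> omega
  have hK : (Subgroup.normalizer ((Q : Subgroup H₀) : Set H₀)).map H₀.subtype ≤
      Subgroup.normalizer ((P' : Subgroup G) : Set G) := by
    rw [← hP']; exact map_norm_le _
  have hKc : Nat.card ((Subgroup.normalizer ((Q : Subgroup H₀) : Set H₀)).map H₀.subtype) =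
      Nat.card (Subgroup.normalizer ((Q : Subgroup H₀) : Set H₀)) :=
    Subgroup.card_map_of_injective H₀.subtype_injective
  have hKe : (Subgroup.normalizer ((Q : Subgroup H₀) : Set H₀)).map H₀.subtype =
      Subgroup.normalizer ((P' : Subgroup G) : Set G) :=
    Subgroup.eq_of_le_of_card_ge hK (by rw [card_norm3 h P', hKc]; exact hge)
  have hP'H : Subgroup.normalizer ((P' : Subgroup G) : Set G) ≤ H₀ := by
    rw [← hKe]; exact Subgroup.map_subtype_le _
  obtain ⟨g, hg⟩ := MulAction.exists_smul_eq G P' P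
  refine ⟨H₀.map (MulAut.conj g).toMonoidHom, by rw [Cfsg.Agent.H12.card_map_conj, h24], ?_⟩
  have hPe : (P : Subgroup G) = (P' : Subgroup G).map (MulAut.conj g).toMonoidHom := by
    rw [← hg]; rfl
  rw [hPe, norm_map]
  exact Subgroup.map_mono hP'H

omit [Finite G] [IsSimpleGroup G] in
theorem eq_of_coatom_le {M H : Subgroup G} (hM : IsCoatom M) (hH : H ≠ ⊤) (hle : M ≤ H) : M = H := by
  by_contra hne
  exact hH (hM.2 H (lt_of_le_of_ne hle hne))

theorem partB1 (h : Nat.card G = 168) (M : Subgroup G) (hM : IsCoatom M) (h7 : ¬ 7 ∣ Nat.card M)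
    (hc : ¬ 3 ∣ Nat.card M ∨ Nat.card (Sylow 3 M) = 1) : False := by
  haveI : Fact (Nat.Prime 2) := ⟨Nat.prime_two⟩
  haveI : Fact (Nat.Prime 3) := ⟨Nat.prime_three⟩
  have htop : ∀ H : Subgroup G, Nat.card H = 24 → H ≠ ⊤ := by
    rintro H hH rfl
    rw [Subgroup.card_top, h] at hH; omega
  by_cases h3 : 3 ∣ Nat.card M
  · have hc1 : Nat.card (Sylow 3 M) = 1 := hc.resolve_left (not_not.mpr h3)
    haveI : Subsingleton (Sylow 3 M) := (Nat.card_eq_one_iff_unique.mp hc1).1
    obtain ⟨Q⟩ : Nonempty (Sylow 3 M) := inferInstance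
    have hQn : (Q : Subgroup M).Normal := Sylow.normal_of_subsingleton Q
    obtain ⟨P, hP⟩ := lift3 h h3 Q
    have hMN : M ≤ Subgroup.normalizer ((P : Subgroup G) : Set G) := by
      rw [← hP]
      intro m hm
      apply mem_normalizer_of_conj_mem
      rintro _ ⟨q, hq, rfl⟩
      exact ⟨⟨m, hm⟩ * q * ⟨m, hm⟩⁻¹, hQn.conj_mem q hq _, rfl⟩
    obtain ⟨H, hH24, hNH⟩ := exists_24 h P
    have hMH : M = H := eq_of_coatom_le hM (htop H hH24) (hMN.trans hNH)
    have h1 := Subgroup.card_le_of_le hMN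
    rw [hMH, hH24, card_norm3 h P] at h1
    omega
  · have hd : Nat.card M ∣ 8 * 21 := by
      have := Subgroup.card_subgroup_dvd_card M
      rw [h] at this
      exact this
    have hcop : Nat.Coprime (Nat.card M) 21 := by
      have : (21 : ℕ) = 3 * 7 := by norm_num
      rw [this]
      exact Nat.Coprime.mul_right
        (Nat.Coprime.symm ((Nat.Prime.coprime_iff_not_dvd Nat.prime_three).mpr h3))
        (Nat.Coprime.symm ((Nat.Prime.coprime_iff_not_dvd (by norm_num)).mpr h7))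
    have h8 : Nat.card M ∣ 2 ^ 3 := hcop.dvd_of_dvd_mul_right hd
    obtain ⟨k, -, hk⟩ := (Nat.dvd_prime_pow Nat.prime_two).mp h8
    have hp : IsPGroup 2 M := IsPGroup.of_card hk
    obtain ⟨T, hT⟩ := hp.exists_le_sylow
    obtain ⟨⟨e⟩, -, -⟩ := main h T
    obtain ⟨z, -, -, -, U, -, hU, -, hUT, -, -, -⟩ := struct4 T e
    have hTN := le_normalizer_of_card hUT hU.card_four (card8 h T)
    have h24 := card_norm h hU
    have hMH : M = Subgroup.normalizer (U : Set G) :=
      eq_of_coatom_le hM (htop _ h24) (hT.trans hTN)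
    apply h3
    rw [hMH, h24]
    norm_num

end Cfsg.Agent.Lib.Helper8.O168
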