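import Mathlib
import Cfsg.Agent.Lib.Helper8.O168e
import Cfsg.Agent.S0228

/-!
# Simple groups of order 168: maximal subgroups with several Sylow 3-subgroups
-/

set_option autoImplicit false

namespace Cfsg.Agent.Lib.Helper8.O168

open Cfsg.Agent.H14

variable {G : Type*} [Group G] [Finite G] [IsSimpleGroup G]

theorem partC3 (h : Nat.card G = 168) (M : Subgroup G) (hM : IsCoatom M) (h7 : ¬ 7 ∣ Nat.card M)
    (h3 : 3 ∣ Nat.card M) (hn : Nat.card (Sylow 3 M) ≠ 1) :
    Nonempty (M ≃* Equiv.Perm (Fin 4)) := by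
  haveI : Fact (Nat.Prime 3) := ⟨Nat.prime_three⟩
  have hd : Nat.card M ∣ 24 * 7 := by
    have := Subgroup.card_subgroup_dvd_card M
    rw [h] at this
    exact this
  have h24 : Nat.card M ∣ 24 :=
    (Nat.Coprime.symm ((Nat.Prime.coprime_iff_not_dvd (by norm_num : Nat.Prime 7)).mpr h7)).dvd_of_dvd_mul_right hd
  obtain ⟨Q⟩ : Nonempty (Sylow 3 M) := inferInstance
  have hn1 : Nat.card (Sylow 3 M) ≡ 1 [MOD 3] := card_sylow_modEq_one 3 M
  have hn2 : Nat.card (Sylow 3 M) ∣ (Q : Subgroup M).index := Q.card_dvd_index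
  have hq := (Q : Subgroup M).card_mul_index
  have hQ3 : 3 ∣ Nat.card (Q : Subgroup M) := by
    have h3' := h3
    rw [← hq] at h3'
    exact (Nat.prime_three.dvd_mul.mp h3').resolve_right Q.not_dvd_index
  have hi0 : (Q : Subgroup M).index ≠ 0 := Subgroup.index_ne_zero_of_finite
  have hge : 12 ≤ Nat.card M := by
    have h4 : 4 ≤ Nat.card (Sylow 3 M) := by
      unfold Nat.ModEq at hn1
      have : Nat.card (Sylow 3 M) ≠ 0 := Nat.card_pos.ne'
      omega
    have h5 : 4 ≤ (Q : Subgroup M).index := h4.trans (Nat.le_of_dvd (Nat.pos_of_ne_zero hi0) hn2)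
    have h6 : 3 ≤ Nat.card (Q : Subgroup M) := Nat.le_of_dvd Nat.card_pos hQ3
    calc 12 = 3 * 4 := by norm_num
      _ ≤ Nat.card (Q : Subgroup M) * (Q : Subgroup M).index := Nat.mul_le_mul h6 h5
      _ = Nat.card M := hq
  have hcases : Nat.card M = 12 ∨ Nat.card M = 24 := by
    have hle := Nat.le_of_dvd (by norm_num) h24
    clear hq hd h3 h7
    generalize Nat.card M = c at *
    interval_cases c <;> omega
  rcases hcases with h12 | h24'
  · exfalso
    have hz : ∀ z : M, orderOf z = 2 → z ∉ Subgroup.center M := by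
      intro z hz2 hzc
      obtain ⟨x, hx⟩ := exists_prime_orderOf_dvd_card' (G := M) 3 h3
      have hcomm : Commute x z := Subgroup.mem_center_iff.mp hzc x
      have ho : orderOf (x * z) = 6 := by
        rw [hcomm.orderOf_mul_eq_mul_orderOf_of_coprime (by rw [hx, hz2]; norm_num), hx, hz2]
      exact no_six h ((x * z : M) : G) (by rw [Subgroup.orderOf_coe]; exact ho)
    obtain ⟨φ⟩ := Cfsg.Agent.S0228.result h12 hz
    have h4 : Nat.card (Fin 4) = 4 := by simp
    have hV₀n := alternatingGroup.normal_kleinFour h4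
    have hk := alternatingGroup.kleinFour_isKleinFour h4
    obtain ⟨ι, hι⟩ : ∃ ι : alternatingGroup (Fin 4) →* G,
      ι = M.subtype.comp φ.symm.toMonoidHom := ⟨_, rfl⟩
    have hinj : Function.Injective ι := by
      rw [hι]; exact M.subtype_injective.comp φ.symm.injective
    have hVk : IsKleinFour ((alternatingGroup.kleinFour (Fin 4)).map ι) := by
      apply isKleinFour_of_card_of_sq
      · rw [Subgroup.card_map_of_injective hinj, hk.card_four]
      · rintro _ ⟨w, hw, rfl⟩
        rw [← map_mul, klein_mul_self' hk hw, map_one]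
    have hMN : M ≤ Subgroup.normalizer
        (((alternatingGroup.kleinFour (Fin 4)).map ι : Subgroup G) : Set G) := by
      intro m hm
      apply mem_normalizer_of_conj_mem
      rintro _ ⟨w, hw, rfl⟩
      refine ⟨φ ⟨m, hm⟩ * w * (φ ⟨m, hm⟩)⁻¹, hV₀n.conj_mem w hw _, ?_⟩
      have : ι (φ ⟨m, hm⟩) = m := by simp [hι]
      rw [map_mul, map_mul, map_inv, this]
    have hc24 := card_norm h hVk
    have hMH := eq_of_coatom_le hM
      (by intro ht; rw [ht, Subgroup.card_top, h] at hc24; omega) hMN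
    rw [← hMH, h12] at hc24
    omega
  · exact Cfsg.Agent.S1012.result h24'
      (fun g hg => no_six h (g : G) (by rw [Subgroup.orderOf_coe]; exact hg))

end Cfsg.Agent.Lib.Helper8.O168
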