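import Mathlib
import Cfsg.Prelude.Def_LieRecognition
import Cfsg.Agent.Lib.Helper8.OddInv

/-!
# A four-group normalising a subgroup of odd order
-/

namespace Cfsg.Agent.Lib.Helper8

variable {M : Type*} [Group M]

/-- in a group of odd order, `p c p` determines `p` -/
theorem odd_sandwich_unique {X : Subgroup M} (hodd : Odd (Nat.card X)) {c p p' : M}
    (hc : c ∈ X) (hp : p ∈ X) (hp' : p' ∈ X) (h : p * c * p = p' * c * p') : p = p' := by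
  obtain ⟨n, hn⟩ := exists_sqrt_of_odd'' (odd_orderOf_of_mem hodd hc)
  have hj : c ^ n ∈ X := X.pow_mem hc n
  set j := c ^ n with hjdef
  have h1 : (j * p * j) * (j * p * j) = (j * p' * j) * (j * p' * j) := by
    calc (j * p * j) * (j * p * j) = j * (p * (j * j) * p) * j := by group
      _ = j * (p' * (j * j) * p') * j := by rw [hn, h]
      _ = (j * p' * j) * (j * p' * j) := by group
  have h2 := eq_of_sq_eq_of_odd (odd_orderOf_of_mem hodd (X.mul_mem (X.mul_mem hj hp) hj))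
    (odd_orderOf_of_mem hodd (X.mul_mem (X.mul_mem hj hp') hj)) h1
  exact mul_left_cancel (mul_right_cancel h2)

/-- in a group of odd order, `p c p = e` is solvable -/
theorem odd_sandwich_exists {X : Subgroup M} (hodd : Odd (Nat.card X)) {c e : M}
    (hc : c ∈ X) (he : e ∈ X) : ∃ p ∈ X, p * c * p = e := by
  obtain ⟨n, hn⟩ := exists_sqrt_of_odd'' (odd_orderOf_of_mem hodd hc)
  have hj : c ^ n ∈ X := X.pow_mem hc n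
  set j := c ^ n with hjdef
  have hje : j * e * j ∈ X := X.mul_mem (X.mul_mem hj he) hj
  obtain ⟨m, hm⟩ := exists_sqrt_of_odd'' (odd_orderOf_of_mem hodd hje)
  have hq : (j * e * j) ^ m ∈ X := X.pow_mem hje m
  set q := (j * e * j) ^ m with hqdef
  refine ⟨j⁻¹ * q * j⁻¹, X.mul_mem (X.mul_mem (X.inv_mem hj) hq) (X.inv_mem hj), ?_⟩
  calc j⁻¹ * q * j⁻¹ * c * (j⁻¹ * q * j⁻¹) = j⁻¹ * q * j⁻¹ * (j * j) * (j⁻¹ * q * j⁻¹) := by rw [hn]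
    _ = j⁻¹ * (q * q) * j⁻¹ := by group
    _ = e := by rw [hm]; group

/-- an element inverted by `x` is `l k₂ l` with `l ∈ C(y)`, `k₂ ∈ C(x y)` -/
theorem fourgroup_inverted {x y : M} (hyy : y * y = 1) (hxy : x * y = y * x)
    {X : Subgroup M} (hodd : Odd (Nat.card X))
    (hnx : ∀ n ∈ X, x * n * x⁻¹ ∈ X) (hny : ∀ n ∈ X, y * n * y⁻¹ ∈ X)
    {k : M} (hk : k ∈ X) (hkx : x * k * x⁻¹ = k⁻¹) :
    ∃ l ∈ X, ∃ k₂ ∈ X, y * l = l * y ∧ (x * y) * k₂ = k₂ * (x * y) ∧ k = l * k₂ * l := by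
  have hyi := inv_eq_self_of_mul_self hyy
  have hk' : y * k * y⁻¹ ∈ X := hny k hk
  have hxy' : x * y * k * y⁻¹ * x⁻¹ = y * (x * k * x⁻¹) * y⁻¹ := by
    have h1 : y⁻¹ * x⁻¹ = x⁻¹ * y⁻¹ := by rw [← mul_inv_rev, ← mul_inv_rev, hxy]
    calc x * y * k * y⁻¹ * x⁻¹ = (x * y) * k * (y⁻¹ * x⁻¹) := by group
      _ = (y * x) * k * (x⁻¹ * y⁻¹) := by rw [hxy, h1]
      _ = y * (x * k * x⁻¹) * y⁻¹ := by group
  obtain ⟨k₁, hk₁, hk₁e⟩ := odd_sandwich_exists hodd (X.inv_mem hk) hk'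
  -- `k₁` is inverted by `x`
  have hk₁x : x * k₁ * x⁻¹ = k₁⁻¹ := by
    have h1 : (x * k₁⁻¹ * x⁻¹) * k⁻¹ * (x * k₁⁻¹ * x⁻¹) = k₁ * k⁻¹ * k₁ := by
      calc (x * k₁⁻¹ * x⁻¹) * k⁻¹ * (x * k₁⁻¹ * x⁻¹)
          = (x * k₁⁻¹ * x⁻¹) * (x * k * x⁻¹) * (x * k₁⁻¹ * x⁻¹) := by rw [hkx]
        _ = x * (k₁ * k⁻¹ * k₁)⁻¹ * x⁻¹ := by group
        _ = x * (y * k * y⁻¹)⁻¹ * x⁻¹ := by rw [hk₁e]
        _ = (x * y * k * y⁻¹ * x⁻¹)⁻¹ := by group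
        _ = (y * (x * k * x⁻¹) * y⁻¹)⁻¹ := by rw [hxy']
        _ = y * k * y⁻¹ := by rw [hkx]; group
        _ = k₁ * k⁻¹ * k₁ := hk₁e.symm
    have h2 := odd_sandwich_unique hodd (X.inv_mem hk) (hnx _ (X.inv_mem hk₁)) hk₁ h1
    calc x * k₁ * x⁻¹ = (x * k₁⁻¹ * x⁻¹)⁻¹ := by group
      _ = k₁⁻¹ := by rw [h2]
  -- `k₁` commutes with `y`
  have hk₁y : y * k₁ * y⁻¹ = k₁ := by
    have h1 : (y * k₁ * y⁻¹) * (y * k * y⁻¹)⁻¹ * (y * k₁ * y⁻¹) = k₁ * (y * k * y⁻¹)⁻¹ * k₁ := by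
      calc (y * k₁ * y⁻¹) * (y * k * y⁻¹)⁻¹ * (y * k₁ * y⁻¹)
          = y * (k₁ * k⁻¹ * k₁) * y⁻¹ := by group
        _ = y * (y * k * y⁻¹) * y⁻¹ := by rw [hk₁e]
        _ = (y * y) * k * (y * y)⁻¹ := by group
        _ = k := by rw [hyy]; group
        _ = k₁ * (k₁ * k⁻¹ * k₁)⁻¹ * k₁ := by group
        _ = k₁ * (y * k * y⁻¹)⁻¹ * k₁ := by rw [hk₁e]
    exact odd_sandwich_unique hodd (X.inv_mem hk') (hny _ hk₁) hk₁ h1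
  obtain ⟨n, hn⟩ := exists_sqrt_of_odd'' (odd_orderOf_of_mem hodd hk₁)
  have hl : k₁ ^ n ∈ X := X.pow_mem hk₁ n
  have hlx := pow_inverted hk₁x n
  have hly : y * k₁ ^ n * y⁻¹ = k₁ ^ n := by rw [← conj_pow, hk₁y]
  set l := k₁ ^ n with hldef
  have hk₂x : x * (l⁻¹ * k * l⁻¹) * x⁻¹ = (l⁻¹ * k * l⁻¹)⁻¹ := by
    calc x * (l⁻¹ * k * l⁻¹) * x⁻¹ = (x * l * x⁻¹)⁻¹ * (x * k * x⁻¹) * (x * l * x⁻¹)⁻¹ := by group
      _ = (l⁻¹ * k * l⁻¹)⁻¹ := by rw [hlx, hkx]; group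
  have hk₂y : y * (l⁻¹ * k * l⁻¹) * y⁻¹ = (l⁻¹ * k * l⁻¹)⁻¹ := by
    calc y * (l⁻¹ * k * l⁻¹) * y⁻¹ = (y * l * y⁻¹)⁻¹ * (y * k * y⁻¹) * (y * l * y⁻¹)⁻¹ := by group
      _ = l⁻¹ * (k₁ * k⁻¹ * k₁) * l⁻¹ := by rw [hly, hk₁e]
      _ = l⁻¹ * ((l * l) * k⁻¹ * (l * l)) * l⁻¹ := by rw [hn]
      _ = (l⁻¹ * k * l⁻¹)⁻¹ := by group
  refine ⟨l, hl, l⁻¹ * k * l⁻¹, X.mul_mem (X.mul_mem (X.inv_mem hl) hk) (X.inv_mem hl), ?_, ?_,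
    by group⟩
  · calc y * l = (y * l * y⁻¹) * y := by group
      _ = l * y := by rw [hly]
  · calc (x * y) * (l⁻¹ * k * l⁻¹) = x * (y * (l⁻¹ * k * l⁻¹) * y⁻¹) * y := by group
      _ = x * (l⁻¹ * k * l⁻¹)⁻¹ * y := by rw [hk₂y]
      _ = (x * (l⁻¹ * k * l⁻¹) * x⁻¹)⁻¹ * x * y := by group
      _ = (l⁻¹ * k * l⁻¹) * (x * y) := by rw [hk₂x]; group

/-- a subgroup of odd order normalised by a four-group is the product of the centralisers of the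
involutions -/
theorem fourgroup_gen {x y : M} (hxx : x * x = 1) (hyy : y * y = 1) (hxy : x * y = y * x)
    {X : Subgroup M} (hodd : Odd (Nat.card X))
    (hnx : ∀ n ∈ X, x * n * x⁻¹ ∈ X) (hny : ∀ n ∈ X, y * n * y⁻¹ ∈ X) {n : M} (hn : n ∈ X) :
    ∃ n₁ ∈ X, ∃ n₂ ∈ X, ∃ n₃ ∈ X, x * n₁ = n₁ * x ∧ y * n₂ = n₂ * y ∧
      (x * y) * n₃ = n₃ * (x * y) ∧ n = n₁ * (n₂ * n₃ * n₂) := by
  obtain ⟨n₁, z, hn₁, hz, rfl⟩ := oddinv_exists hxx hodd hnx hn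
  obtain ⟨l, hl, k₂, hk₂, h1, h2, h3⟩ := fourgroup_inverted hyy hxy hodd hnx hny hz.1 hz.2
  refine ⟨n₁, (Subgroup.mem_inf.mp hn₁).1, l, hl, k₂, hk₂, ?_, h1, h2, by rw [h3]⟩
  exact (Subgroup.mem_centralizer_singleton_iff.mp (Subgroup.mem_inf.mp hn₁).2).symm

end Cfsg.Agent.Lib.Helper8
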