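import Mathlib
import Cfsg.Prelude.Def_LieRecognition
import Cfsg.Agent.Lib.Helper8.RankOne

/-!
# The split rank-one set-up: centralisers of subsets of the two-point stabiliser
-/

namespace Cfsg.Agent.Lib.Helper8

open MulAction

variable {G Ω : Type*} [Group G] [MulAction G Ω] {a : Ω} {t : G} {Q : Subgroup G}

namespace RO

theorem fix_of_cent {X : Set G} {g : G} (hg : g ∈ Subgroup.centralizer X) {e : Ω}
    (he : ∀ x ∈ X, x • e = e) : ∀ x ∈ X, x • (g • e) = g • e := by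
  intro x hx
  rw [← mul_smul, Subgroup.mem_centralizer_iff.mp hg x hx, mul_smul, he x hx]

theorem cent_Q_trans (hS : Cfsg.IsRankOneSetup G Ω a t Q) {X : Set G}
    (hX : X ⊆ ((stabilizer G a ⊓ stabilizer G (t • a) : Subgroup G) : Set G)) {e e' : Ω}
    (he : ∀ x ∈ X, x • e = e) (he' : ∀ x ∈ X, x • e' = e') (hea : e ≠ a) (he'a : e' ≠ a) :
    ∃ q ∈ Subgroup.centralizer X ⊓ Q, q • e = e' := by
  obtain ⟨q, hq, hqe⟩ := Q_trans hS hea he'a
  refine ⟨q, Subgroup.mem_inf.mpr ⟨?_, hq⟩, hqe⟩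
  rw [Subgroup.mem_centralizer_iff]
  intro x hx
  have h1 : x * q * x⁻¹ ∈ Q := D_norm hS x (hX hx) q hq
  have h2 : (x * q * x⁻¹) • e = q • e := by
    have : x⁻¹ • e = e := by
      conv_lhs => rw [← he x hx]
      exact inv_smul_smul x e
    rw [mul_smul, mul_smul, this, hqe, he' x hx]
  have h3 := Q_unique hS hea h1 hq h2
  calc x * q = (x * q * x⁻¹) * x := by group
    _ = q * x := by rw [h3]

theorem conj_t_mem_D (hS : Cfsg.IsRankOneSetup G Ω a t Q) {x : G}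
    (hx : x ∈ stabilizer G a ⊓ stabilizer G (t • a)) :
    t * x * t ∈ stabilizer G a ⊓ stabilizer G (t • a) := by
  have h1 : x • a = a := hx.1
  have h2 : x • t • a = t • a := hx.2
  refine Subgroup.mem_inf.mpr ⟨?_, ?_⟩
  · show (t * x * t) • a = a
    rw [mul_smul, mul_smul, h2, tta hS]
  · show (t * x * t) • t • a = t • a
    rw [mul_smul, mul_smul, tta hS, h1]

theorem cent_move_a (hS : Cfsg.IsRankOneSetup G Ω a t Q) {X : Set G}
    (hX : X ⊆ ((stabilizer G a ⊓ stabilizer G (t • a) : Subgroup G) : Set G)) {e : Ω}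
    (he : ∀ x ∈ X, x • e = e) (heb : e ≠ t • a) :
    ∃ g ∈ Subgroup.centralizer X, g • a = e ∧ g • (t • a) = t • a := by
  have htt := hS.mul_self
  have hti := t_inv hS
  have hte : t • e ≠ a := by
    intro h
    apply heb
    rw [← h, ← mul_smul, htt, one_smul]
  obtain ⟨q, hq, hqe⟩ := Q_trans hS (ta_ne hS) hte
  refine ⟨t * q * t, ?_, ?_, ?_⟩
  · rw [Subgroup.mem_centralizer_iff]
    intro x hx
    have hy := conj_t_mem_D hS (hX hx)
    have h1 : (t * x * t) * q * (t * x * t)⁻¹ ∈ Q := D_norm hS _ hy q hq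
    have h2 : ((t * x * t) * q * (t * x * t)⁻¹) • (t • a) = q • (t • a) := by
      have h3 : (t * x * t)⁻¹ • (t • a) = t • a := by
        have : (t * x * t) • (t • a) = t • a := hy.2
        conv_lhs => rw [← this]
        exact inv_smul_smul _ _
      rw [mul_smul, mul_smul, h3, hqe, mul_smul, mul_smul, ← mul_smul t t, htt, one_smul, he x hx]
    have h4 := Q_unique hS (ta_ne hS) h1 hq h2
    have h5 : (t * x * t) * q = q * (t * x * t) := by
      calc (t * x * t) * q = ((t * x * t) * q * (t * x * t)⁻¹) * (t * x * t) := by group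
        _ = q * (t * x * t) := by rw [h4]
    calc x * (t * q * t) = t⁻¹ * ((t * x * t) * q) * t := by group
      _ = t⁻¹ * (q * (t * x * t)) * t := by rw [h5]
      _ = t * (q * (t * x * t)) * t⁻¹ := by rw [hti]
      _ = t * q * t * x := by group
  · rw [mul_smul, mul_smul, hqe, ← mul_smul, htt, one_smul]
  · rw [mul_smul, mul_smul, tta hS, Q_fix hS hq]

/-- `C_G(X)` carries any ordered pair of distinct fixed points to `(a, t • a)`. -/
theorem cent_to_base (hS : Cfsg.IsRankOneSetup G Ω a t Q) {X : Set G}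
    (hX : X ⊆ ((stabilizer G a ⊓ stabilizer G (t • a) : Subgroup G) : Set G))
    (h3 : ∃ b c d : Ω, b ≠ c ∧ b ≠ d ∧ c ≠ d ∧ ∀ x ∈ X, x • b = b ∧ x • c = c ∧ x • d = d)
    {b₁ b₂ : Ω} (h₁ : ∀ x ∈ X, x • b₁ = b₁) (h₂ : ∀ x ∈ X, x • b₂ = b₂) (hne : b₁ ≠ b₂) :
    ∃ g ∈ Subgroup.centralizer X, g • b₁ = a ∧ g • b₂ = t • a := by
  have hb : ∀ x ∈ X, x • (t • a) = t • a := fun x hx => (hX hx).2
  -- a third fixed point
  obtain ⟨e, he, hea, heb⟩ : ∃ e : Ω, (∀ x ∈ X, x • e = e) ∧ e ≠ a ∧ e ≠ t • a := by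
    obtain ⟨b, c, d, hbc, hbd, hcd, hfix⟩ := h3
    by_cases h1 : b ≠ a ∧ b ≠ t • a
    · exact ⟨b, fun x hx => (hfix x hx).1, h1.1, h1.2⟩
    by_cases h2 : c ≠ a ∧ c ≠ t • a
    · exact ⟨c, fun x hx => (hfix x hx).2.1, h2.1, h2.2⟩
    refine ⟨d, fun x hx => (hfix x hx).2.2, ?_, ?_⟩
    · rintro rfl
      have h1' : b = t • d := by
        by_contra h; exact h1 ⟨hbd, h⟩
      have h2' : c = t • d := by
        by_contra h; exact h2 ⟨hcd, h⟩
      exact hbc (h1'.trans h2'.symm)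
    · intro hd
      have h1' : b = a := by
        by_contra h; exact h1 ⟨h, by rw [← hd]; exact hbd⟩
      have h2' : c = a := by
        by_contra h; exact h2 ⟨h, by rw [← hd]; exact hcd⟩
      exact hbc (h1'.trans h2'.symm)
  -- step 1 : move `b₁` to `a`
  obtain ⟨g₁, hg₁, hg₁b⟩ : ∃ g ∈ Subgroup.centralizer X, g • b₁ = a := by
    by_cases h1 : b₁ = t • a
    · obtain ⟨q, hq, hqe⟩ := cent_Q_trans hS hX hb he (ta_ne hS) hea
      obtain ⟨g, hg, hga, -⟩ := cent_move_a hS hX he heb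
      refine ⟨g⁻¹ * q, Subgroup.mul_mem _ (Subgroup.inv_mem _ hg) (Subgroup.mem_inf.mp hq).1, ?_⟩
      rw [mul_smul, h1, hqe, ← hga, inv_smul_smul]
    · obtain ⟨g, hg, hga, -⟩ := cent_move_a hS hX h₁ h1
      exact ⟨g⁻¹, Subgroup.inv_mem _ hg, by rw [← hga, inv_smul_smul]⟩
  have h₂' := fix_of_cent hg₁ h₂
  have hne' : g₁ • b₂ ≠ a := by
    rw [← hg₁b]
    intro h
    exact hne (smul_left_cancel g₁ h).symm
  obtain ⟨q, hq, hqe⟩ := cent_Q_trans hS hX h₂' hb hne' (ta_ne hS)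
  refine ⟨q * g₁, Subgroup.mul_mem _ (Subgroup.mem_inf.mp hq).1 hg₁, ?_, ?_⟩
  · rw [mul_smul, hg₁b, Q_fix hS (Subgroup.mem_inf.mp hq).2]
  · rw [mul_smul, hqe]

variable [Finite G]

/-- an involution of `C_G(X)` interchanging `a` and `t • a` -/
theorem exists_invol_swap_cent (hS : Cfsg.IsRankOneSetup G Ω a t Q) {X : Set G}
    (hX : X ⊆ ((stabilizer G a ⊓ stabilizer G (t • a) : Subgroup G) : Set G))
    (h3 : ∃ b c d : Ω, b ≠ c ∧ b ≠ d ∧ c ≠ d ∧ ∀ x ∈ X, x • b = b ∧ x • c = c ∧ x • d = d) :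
    ∃ w ∈ Subgroup.centralizer X, w * w = 1 ∧ w • a = t • a ∧ w • (t • a) = a := by
  have ha : ∀ x ∈ X, x • a = a := fun x hx => (hX hx).1
  have hb : ∀ x ∈ X, x • (t • a) = t • a := fun x hx => (hX hx).2
  obtain ⟨g, hg, hg1, hg2⟩ := cent_to_base hS hX h3 hb ha (ta_ne hS)
  have hgg : g * g ∈ stabilizer G a ⊓ stabilizer G (t • a) := by
    refine Subgroup.mem_inf.mpr ⟨?_, ?_⟩
    · show (g * g) • a = a
      rw [mul_smul, hg2, hg1]
    · show (g * g) • t • a = t • a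
      rw [mul_smul, hg1, hg2]
  obtain ⟨m, hm⟩ := D_odd hS hgg
  have hpow : (g * g) ^ (2 * m + 1) = 1 := by rw [← hm]; exact pow_orderOf_eq_one _
  have hfixa : ∀ j : ℕ, ((g * g) ^ j) • a = a := by
    intro j
    have : (g * g) ^ j ∈ stabilizer G a := Subgroup.pow_mem _ hgg.1 j
    exact this
  have hfixb : ∀ j : ℕ, ((g * g) ^ j) • (t • a) = t • a := by
    intro j
    have : (g * g) ^ j ∈ stabilizer G (t • a) := Subgroup.pow_mem _ hgg.2 j
    exact this
  have e1 : g ^ (2 * m + 1) = g * (g * g) ^ m := by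
    rw [← pow_two, ← pow_mul, pow_succ']
  refine ⟨g ^ (2 * m + 1), Subgroup.pow_mem _ hg _, ?_, ?_, ?_⟩
  · rw [← pow_add, ← two_mul, pow_mul, pow_two, hpow]
  · rw [e1, mul_smul, hfixa, hg2]
  · rw [e1, mul_smul, hfixb, hg1]

end RO

end Cfsg.Agent.Lib.Helper8
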