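import Mathlib
import Cfsg.Prelude.Def_LieRecognition
import Cfsg.Agent.Lib.Helper8.RankOne2

/-!
# The split rank-one set-up: involutions interchanging `a` and `t • a`
-/

namespace Cfsg.Agent.Lib.Helper8

open MulAction

theorem exists_sqrt_of_odd' {G : Type*} [Group G] {k : G} (h : Odd (orderOf k)) :
    ∃ n : ℕ, k ^ n * k ^ n = k := by
  obtain ⟨n, hn⟩ := h
  refine ⟨n + 1, ?_⟩
  rw [← pow_add]
  have : n + 1 + (n + 1) = (2 * n + 1) + 1 := by ring
  rw [this, pow_succ, ← hn, pow_orderOf_eq_one, one_mul]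

variable {G Ω : Type*} [Group G] [MulAction G Ω] {a : Ω} {t : G} {Q : Subgroup G}

namespace RO

variable [Finite G]

/-- an involution interchanging `a` and `t • a` is conjugate to `t` by an element of `D` inverted
by `t` -/
theorem swap_invol_conj (hS : Cfsg.IsRankOneSetup G Ω a t Q) {w : G} (hww : w * w = 1)
    (hwa : w • a = t • a) (hwb : w • (t • a) = a) :
    ∃ l ∈ Cfsg.invertedBy (stabilizer G a ⊓ stabilizer G (t • a)) t, l * w * l⁻¹ = t := by
  have htt := hS.mul_self
  have hti := t_inv hS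
  have hwi := inv_eq_self_of_mul_self hww
  have hd : t * w ∈ stabilizer G a ⊓ stabilizer G (t • a) := by
    refine Subgroup.mem_inf.mpr ⟨?_, ?_⟩
    · show (t * w) • a = a
      rw [mul_smul, hwa, tta hS]
    · show (t * w) • t • a = t • a
      rw [mul_smul, hwb]
  have hinv : t * (t * w) * t⁻¹ = (t * w)⁻¹ := by
    rw [mul_inv_rev, hti, hwi]
    calc t * (t * w) * t = (t * t) * w * t := by group
      _ = w * t := by rw [htt, one_mul]
  obtain ⟨n, hn⟩ := exists_sqrt_of_odd' (D_odd hS hd)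
  have hl := pow_inverted hinv n
  refine ⟨(t * w) ^ n, ⟨Subgroup.pow_mem _ hd n, hl⟩, ?_⟩
  set l := (t * w) ^ n with hldef
  -- `t l = l⁻¹ t`
  have h1 : t * l = l⁻¹ * t := by
    calc t * l = (t * l * t⁻¹) * t := by group
      _ = l⁻¹ * t := by rw [hl]
  have h2 : w = t * (l * l) := by
    rw [hn, ← mul_assoc, htt, one_mul]
  rw [h2]
  calc l * (t * (l * l)) * l⁻¹ = l * (t * l) := by group
    _ = l * (l⁻¹ * t) := by rw [h1]
    _ = t := by group

end RO

end Cfsg.Agent.Lib.Helper8
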