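import Mathlib
import Cfsg.Prelude.Def_LieRecognition
import Cfsg.Agent.Lib.Helper8.RankOne3
import Cfsg.Agent.Lib.Helper8.OddInv

/-!
# The split rank-one set-up: counting involutions
-/

namespace Cfsg.Agent.Lib.Helper8

open MulAction

variable {G Ω : Type*} [Group G] [MulAction G Ω] {a : Ω} {t : G} {Q : Subgroup G}

theorem conj_fix_iff {g s : G} {c : Ω} : (g⁻¹ * s * g) • c = c ↔ s • (g • c) = g • c := by
  rw [mul_smul, mul_smul, inv_smul_eq_iff]

namespace RO

variable [Finite G]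

/-- the involutions moving `a` -/
def Jset (G : Type*) {Ω : Type*} [Group G] [MulAction G Ω] (a : Ω) : Set G :=
  {u | u ≠ 1 ∧ u * u = 1 ∧ u • a ≠ a}

theorem K_mul_t_sq (hS : Cfsg.IsRankOneSetup G Ω a t Q) {k : G} (hk : t * k * t⁻¹ = k⁻¹) :
    (k * t) * (k * t) = 1 := by
  rw [t_inv hS] at hk
  calc (k * t) * (k * t) = k * (t * k * t) := by group
    _ = 1 := by rw [hk]; group

theorem K_conj_smul (hS : Cfsg.IsRankOneSetup G Ω a t Q) {x k : G} (hx : x ∈ Q)
    (hk : k ∈ stabilizer G a ⊓ stabilizer G (t • a)) :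
    (x⁻¹ * (k * t) * x) • a = x⁻¹ • t • a := by
  have h1 : k • t • a = t • a := hk.2
  rw [mul_smul, mul_smul, mul_smul, Q_fix hS hx, h1]

theorem Qinv_tb_ne (hS : Cfsg.IsRankOneSetup G Ω a t Q) {x : G} (hx : x ∈ Q) :
    x⁻¹ • t • a ≠ a := by
  intro h
  rw [inv_smul_eq_iff, Q_fix hS hx] at h
  exact ta_ne hS h

theorem I_conj_fix (hS : Cfsg.IsRankOneSetup G Ω a t Q) {x s : G}
    (hs : s ∈ stabilizer G a) (hs1 : s ≠ 1) (hss : s * s = 1) {c : Ω} :
    (x⁻¹ * (t * s * t) * x) • c = c ↔ c = x⁻¹ • t • a := by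
  have hsQ := invol_mem_Q hS hs hss
  have hti := t_inv hS
  have h0 : x⁻¹ * (t * s * t) * x = (t * x)⁻¹ * s * (t * x) := by
    rw [mul_inv_rev, hti]; group
  rw [h0, conj_fix_iff]
  constructor
  · intro h
    have h3 := fix_eq hS hsQ hs1 h
    rw [mul_smul] at h3
    rw [eq_inv_smul_iff, ← h3, ← mul_smul, hS.mul_self, one_smul]
  · rintro rfl
    rw [mul_smul, smul_inv_smul, tta hS]
    exact hs

/-- first parametrisation of the involutions moving `a` -/
def fK (a : Ω) (t : G) (Q : Subgroup G) :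
    Q × (Cfsg.invertedBy (stabilizer G a ⊓ stabilizer G (t • a)) t) → G :=
  fun p => (p.1 : G)⁻¹ * ((p.2 : G) * t) * (p.1 : G)

/-- second parametrisation of the involutions moving `a` -/
def fI (a : Ω) (t : G) (Q : Subgroup G) :
    Q × (Cfsg.involutionsIn (stabilizer G a : Set G)) → G :=
  fun p => (p.1 : G)⁻¹ * (t * (p.2 : G) * t) * (p.1 : G)

theorem fK_injective (hS : Cfsg.IsRankOneSetup G Ω a t Q) : Function.Injective (fK a t Q) := by
  rintro ⟨⟨x, hx⟩, ⟨k, hk⟩⟩ ⟨⟨x', hx'⟩, ⟨k', hk'⟩⟩ h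
  change x⁻¹ * (k * t) * x = x'⁻¹ * (k' * t) * x' at h
  have h1 : x⁻¹ • t • a = x'⁻¹ • t • a := by
    rw [← K_conj_smul hS hx hk.1, ← K_conj_smul hS hx' hk'.1, h]
  have h2 := Q_unique hS (ta_ne hS) (Q.inv_mem hx) (Q.inv_mem hx') h1
  have h3 : x = x' := inv_injective h2
  subst h3
  have h4 : k = k' := mul_right_cancel (mul_left_cancel (mul_right_cancel h))
  subst h4
  rfl

theorem fK_range (hS : Cfsg.IsRankOneSetup G Ω a t Q) : Set.range (fK a t Q) = Jset G a := by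
  have hti := t_inv hS
  ext u
  constructor
  · rintro ⟨⟨⟨x, hx⟩, ⟨k, hk⟩⟩, rfl⟩
    change x⁻¹ * (k * t) * x ∈ Jset G a
    have hmove : (x⁻¹ * (k * t) * x) • a ≠ a := by
      rw [K_conj_smul hS hx hk.1]
      exact Qinv_tb_ne hS hx
    refine ⟨?_, ?_, hmove⟩
    · intro h
      rw [h, one_smul] at hmove
      exact hmove rfl
    · calc x⁻¹ * (k * t) * x * (x⁻¹ * (k * t) * x)
          = x⁻¹ * ((k * t) * (k * t)) * x := by group
        _ = 1 := by rw [K_mul_t_sq hS hk.2]; group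
  · rintro ⟨hu1, huu, hua⟩
    obtain ⟨x, hx, hxc⟩ := Q_trans hS hua (ta_ne hS)
    have hxa : x⁻¹ • a = a := Q_fix hS (Q.inv_mem hx)
    set w := x * u * x⁻¹ with hw
    have hww : w * w = 1 := by
      calc w * w = x * (u * u) * x⁻¹ := by rw [hw]; group
        _ = 1 := by rw [huu]; group
    have hwa : w • a = t • a := by
      rw [hw, mul_smul, mul_smul, hxa, hxc]
    have hwb : w • t • a = a := by
      rw [← hwa, ← mul_smul, hww, one_smul]
    have hwi := inv_eq_self_of_mul_self hww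
    have hk : w * t ∈ Cfsg.invertedBy (stabilizer G a ⊓ stabilizer G (t • a)) t := by
      refine ⟨Subgroup.mem_inf.mpr ⟨?_, ?_⟩, ?_⟩
      · show (w * t) • a = a
        rw [mul_smul, hwb]
      · show (w * t) • t • a = t • a
        rw [mul_smul, tta hS, hwa]
      · rw [mul_inv_rev, hti, hwi]
        calc t * (w * t) * t = t * w * (t * t) := by group
          _ = t * w := by rw [hS.mul_self, mul_one]
    refine ⟨(⟨x, hx⟩, ⟨w * t, hk⟩), ?_⟩
    show x⁻¹ * (w * t * t) * x = u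
    calc x⁻¹ * (w * t * t) * x = x⁻¹ * w * (t * t) * x := by group
      _ = u := by rw [hS.mul_self, hw]; group

theorem fI_injective (hS : Cfsg.IsRankOneSetup G Ω a t Q) : Function.Injective (fI a t Q) := by
  rintro ⟨⟨x, hx⟩, ⟨s, hs⟩⟩ ⟨⟨x', hx'⟩, ⟨s', hs'⟩⟩ h
  change x⁻¹ * (t * s * t) * x = x'⁻¹ * (t * s' * t) * x' at h
  have h1 : x⁻¹ • t • a = x'⁻¹ • t • a := by
    rw [← I_conj_fix hS hs'.1 hs'.2.1 hs'.2.2, ← h, I_conj_fix hS hs.1 hs.2.1 hs.2.2]
  have h2 := Q_unique hS (ta_ne hS) (Q.inv_mem hx) (Q.inv_mem hx') h1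
  have h3 : x = x' := inv_injective h2
  subst h3
  have h4 : s = s' :=
    mul_left_cancel (mul_right_cancel (mul_left_cancel (mul_right_cancel h)))
  subst h4
  rfl

theorem fI_range (hS : Cfsg.IsRankOneSetup G Ω a t Q) : Set.range (fI a t Q) = Jset G a := by
  have hti := t_inv hS
  ext u
  constructor
  · rintro ⟨⟨⟨x, hx⟩, ⟨s, hs⟩⟩, rfl⟩
    change x⁻¹ * (t * s * t) * x ∈ Jset G a
    have hmove : (x⁻¹ * (t * s * t) * x) • a ≠ a := by
      rw [Ne, I_conj_fix hS hs.1 hs.2.1 hs.2.2]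
      exact fun h => Qinv_tb_ne hS hx h.symm
    refine ⟨?_, ?_, hmove⟩
    · intro h
      rw [h, one_smul] at hmove
      exact hmove rfl
    · calc x⁻¹ * (t * s * t) * x * (x⁻¹ * (t * s * t) * x)
          = x⁻¹ * (t * (s * (t * t) * s) * t) * x := by group
        _ = 1 := by rw [hS.mul_self, mul_one, hs.2.2, mul_one, hS.mul_self]; group
  · rintro ⟨hu1, huu, hua⟩
    obtain ⟨c, hc, -⟩ := exists_fix hS hu1 huu
    have hca : c ≠ a := by
      rintro rfl
      exact hua hc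
    obtain ⟨x, hx, hxc⟩ := Q_trans hS hca (ta_ne hS)
    have hs : t * (x * u * x⁻¹) * t ∈ Cfsg.involutionsIn (stabilizer G a : Set G) := by
      refine ⟨?_, ?_, ?_⟩
      · show (t * (x * u * x⁻¹) * t) • a = a
        rw [mul_smul, mul_smul, mul_smul, mul_smul, ← hxc, inv_smul_smul, hc, hxc, tta hS]
      · intro h
        apply hu1
        calc u = x⁻¹ * ((t * t) * (x * u * x⁻¹) * (t * t)) * x := by rw [hS.mul_self]; group
          _ = x⁻¹ * (t * (t * (x * u * x⁻¹) * t) * t) * x := by group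
          _ = 1 := by rw [h, mul_one, hS.mul_self]; group
      · calc t * (x * u * x⁻¹) * t * (t * (x * u * x⁻¹) * t)
            = t * (x * u * x⁻¹) * (t * t) * (x * u * x⁻¹) * t := by group
          _ = t * (x * (u * u) * x⁻¹) * t := by rw [hS.mul_self]; group
          _ = 1 := by rw [huu]; simp [hS.mul_self]
    refine ⟨(⟨x, hx⟩, ⟨_, hs⟩), ?_⟩
    show x⁻¹ * (t * (t * (x * u * x⁻¹) * t) * t) * x = u
    calc x⁻¹ * (t * (t * (x * u * x⁻¹) * t) * t) * x
        = x⁻¹ * ((t * t) * (x * u * x⁻¹) * (t * t)) * x := by group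
      _ = u := by rw [hS.mul_self]; group

/-- `|K|` is the number of involutions of `G_a` -/
theorem card_K_eq (hS : Cfsg.IsRankOneSetup G Ω a t Q) :
    Nat.card (Cfsg.invertedBy (stabilizer G a ⊓ stabilizer G (t • a)) t)
      = Nat.card (Cfsg.involutionsIn (stabilizer G a : Set G)) := by
  have h1 := Nat.card_range_of_injective (fK_injective hS)
  have h2 := Nat.card_range_of_injective (fI_injective hS)
  rw [fK_range hS] at h1
  rw [fI_range hS, h1, Nat.card_prod, Nat.card_prod] at h2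
  exact Nat.eq_of_mul_eq_mul_left Nat.card_pos h2

end RO

end Cfsg.Agent.Lib.Helper8
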