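import Mathlib
import Cfsg.Prelude.Def_LieRecognition
import Cfsg.Agent.Lib.Helper8.RankOne4
import Cfsg.Agent.S1123
import Cfsg.Agent.S1126

/-!
# The split rank-one set-up: the elements of `D` inverted by `t` permute the involutions of `G_a`
-/

namespace Cfsg.Agent.Lib.Helper8

open MulAction

variable {G Ω : Type*} [Group G] [MulAction G Ω] {a : Ω} {t : G} {Q : Subgroup G}

/-- two inverted elements of odd order that differ by an element commuting with `t` are equal -/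
theorem inverted_eq_of_comm {t k k' : G} (hk : t * k * t⁻¹ = k⁻¹) (hk' : t * k' * t⁻¹ = k'⁻¹)
    (ho : Odd (orderOf k)) (ho' : Odd (orderOf k'))
    (h : (k' * k⁻¹) * t = t * (k' * k⁻¹)) : k = k' := by
  apply eq_of_sq_eq_of_odd ho ho'
  have h1 : t * (k' * k⁻¹) * t⁻¹ = k'⁻¹ * k := by
    calc t * (k' * k⁻¹) * t⁻¹ = (t * k' * t⁻¹) * (t * k * t⁻¹)⁻¹ := by group
      _ = k'⁻¹ * k := by rw [hk, hk', inv_inv]
  have h2 : t * (k' * k⁻¹) * t⁻¹ = k' * k⁻¹ := by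
    rw [← h]; group
  rw [h1] at h2
  calc k * k = k' * (k'⁻¹ * k) * k := by group
    _ = k' * (k' * k⁻¹) * k := by rw [h2]
    _ = k' * k' := by group

namespace RO

variable [Finite G]

theorem conj_mem_invol {H : Subgroup G} {s d : G} (hs : s ∈ Cfsg.involutionsIn (H : Set G))
    (hd : d ∈ H) : d * s * d⁻¹ ∈ Cfsg.involutionsIn (H : Set G) := by
  refine ⟨H.mul_mem (H.mul_mem hd hs.1) (H.inv_mem hd), ?_, ?_⟩
  · intro h
    apply hs.2.1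
    calc s = d⁻¹ * (d * s * d⁻¹) * d := by group
      _ = 1 := by rw [h]; group
  · calc d * s * d⁻¹ * (d * s * d⁻¹) = d * (s * s) * d⁻¹ := by group
      _ = 1 := by rw [hs.2.2]; group

/-- `C_D(t) ≤ C_D(s)` -/
theorem V_le_cent (hS : Cfsg.IsRankOneSetup G Ω a t Q) {s r : G}
    (hs : s ∈ Cfsg.involutionsIn (stabilizer G a : Set G)) (hr : r ∈ Q)
    (h : t * s * t = r⁻¹ * t * r) {d : G} (hd : d ∈ stabilizer G a ⊓ stabilizer G (t • a))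
    (hdt : d * t = t * d) : d * s = s * d := by
  obtain ⟨p, -, huniq⟩ := Cfsg.Agent.S1123.result hS
  have h1 := huniq (s, r) ⟨hs, hr, h⟩
  have hdt' : d⁻¹ * t = t * d⁻¹ := by
    calc d⁻¹ * t = d⁻¹ * (t * d) * d⁻¹ := by group
      _ = d⁻¹ * (d * t) * d⁻¹ := by rw [hdt]
      _ = t * d⁻¹ := by group
  have h2 := huniq (d * s * d⁻¹, d * r * d⁻¹) ⟨conj_mem_invol hs hd.1, D_norm hS d hd r hr, by
    show t * (d * s * d⁻¹) * t = (d * r * d⁻¹)⁻¹ * t * (d * r * d⁻¹)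
    calc t * (d * s * d⁻¹) * t = (t * d) * s * (d⁻¹ * t) := by group
      _ = (d * t) * s * (t * d⁻¹) := by rw [hdt, hdt']
      _ = d * (t * s * t) * d⁻¹ := by group
      _ = d * (r⁻¹ * t * r) * d⁻¹ := by rw [h]
      _ = d * r⁻¹ * (t * d⁻¹) * d * r * d⁻¹ := by group
      _ = d * r⁻¹ * (d⁻¹ * t) * d * r * d⁻¹ := by rw [hdt']
      _ = (d * r * d⁻¹)⁻¹ * t * (d * r * d⁻¹) := by group⟩
  have h3 : d * s * d⁻¹ = s := by
    have := h2.trans h1.symm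
    exact congrArg Prod.fst this
  calc d * s = (d * s * d⁻¹) * d := by group
    _ = s * d := by rw [h3]

/-- `C_D(s) ≤ C_D(t)` -/
theorem cent_le_V (hS : Cfsg.IsRankOneSetup G Ω a t Q) {s r : G}
    (hs : s ∈ Cfsg.involutionsIn (stabilizer G a : Set G)) (hr : r ∈ Q)
    (h : t * s * t = r⁻¹ * t * r) {d : G} (hd : d ∈ stabilizer G a ⊓ stabilizer G (t • a))
    (hds : d * s = s * d) : d * t = t * d := by
  have hsQ := invol_mem_Q hS hs.1 hs.2.2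
  set X : Set G := {x | x ∈ stabilizer G a ⊓ stabilizer G (t • a) ∧ x * s = s * x} with hX
  have hXD : X ⊆ ((stabilizer G a ⊓ stabilizer G (t • a) : Subgroup G) : Set G) := fun x hx => hx.1
  have h3 : ∃ b c d : Ω, b ≠ c ∧ b ≠ d ∧ c ≠ d ∧ ∀ x ∈ X, x • b = b ∧ x • c = c ∧ x • d = d := by
    refine ⟨a, t • a, s • t • a, (ta_ne hS).symm, ?_, ?_, ?_⟩
    · intro h1
      have h2 : s • a = s • t • a := by
        rw [← h1]; exact hs.1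
      exact ta_ne hS (smul_left_cancel s h2).symm
    · intro h1
      exact ta_ne hS (fix_eq hS hsQ hs.2.1 h1.symm)
    · intro x hx
      refine ⟨hx.1.1, hx.1.2, ?_⟩
      have h4 : x • t • a = t • a := hx.1.2
      rw [← mul_smul, hx.2, mul_smul, h4]
  obtain ⟨k, hk, hkX⟩ := Cfsg.Agent.S1126.result hS X hXD h3
  have hmem : ∀ x ∈ X, k * x * k⁻¹ ∈ X := fun x hx =>
    ⟨Subgroup.mul_mem _ (Subgroup.mul_mem _ hk hx.1) (Subgroup.inv_mem _ hk),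
      V_le_cent hS hs hr h (Subgroup.mul_mem _ (Subgroup.mul_mem _ hk hx.1) (Subgroup.inv_mem _ hk))
        (hkX x hx)⟩
  let φ : X → X := fun x => ⟨k * x * k⁻¹, hmem x x.2⟩
  have hinj : Function.Injective φ := by
    intro x y hxy
    have : k * (x : G) * k⁻¹ = k * (y : G) * k⁻¹ := congrArg Subtype.val hxy
    exact Subtype.ext (mul_left_cancel (mul_right_cancel this))
  have hsurj := Finite.surjective_of_injective hinj
  obtain ⟨x, hx⟩ := hsurj ⟨d, hd, hds⟩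
  have hx' : k * (x : G) * k⁻¹ = d := congrArg Subtype.val hx
  rw [← hx']
  exact hkX x x.2

/-- the conjugates under `K` of the distinguished involution are all involutions of `G_a` -/
theorem K_trans_base (hS : Cfsg.IsRankOneSetup G Ω a t Q) {s r : G}
    (hs : s ∈ Cfsg.involutionsIn (stabilizer G a : Set G)) (hr : r ∈ Q)
    (h : t * s * t = r⁻¹ * t * r) {s' : G}
    (hs' : s' ∈ Cfsg.involutionsIn (stabilizer G a : Set G)) :
    ∃ k ∈ Cfsg.invertedBy (stabilizer G a ⊓ stabilizer G (t • a)) t, k⁻¹ * s * k = s' := by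
  let ψ : Cfsg.invertedBy (stabilizer G a ⊓ stabilizer G (t • a)) t →
      Cfsg.involutionsIn (stabilizer G a : Set G) := fun k =>
    ⟨(k : G)⁻¹ * s * k, by
      have := conj_mem_invol hs (Subgroup.inv_mem _ k.2.1.1)
      rwa [inv_inv] at this⟩
  have hinj : Function.Injective ψ := by
    intro k k' hkk
    have h1 : (k : G)⁻¹ * s * k = (k' : G)⁻¹ * s * k' := congrArg Subtype.val hkk
    have h2 : ((k' : G) * (k : G)⁻¹) * s = s * ((k' : G) * (k : G)⁻¹) := by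
      calc ((k' : G) * (k : G)⁻¹) * s = k' * ((k : G)⁻¹ * s * k) * (k : G)⁻¹ := by group
        _ = k' * ((k' : G)⁻¹ * s * k') * (k : G)⁻¹ := by rw [h1]
        _ = s * ((k' : G) * (k : G)⁻¹) := by group
    have h3 := cent_le_V hS hs hr h (Subgroup.mul_mem _ k'.2.1 (Subgroup.inv_mem _ k.2.1)) h2
    exact Subtype.ext (inverted_eq_of_comm k.2.2 k'.2.2 (D_odd hS k.2.1) (D_odd hS k'.2.1) h3)
  have hbij := hinj.bijective_of_nat_card_le (card_K_eq hS).ge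
  obtain ⟨k, hk⟩ := hbij.2 ⟨s', hs'⟩
  exact ⟨k, k.2, congrArg Subtype.val hk⟩

/-- the conjugates under `K` of any involution of `G_a` are all involutions of `G_a` -/
theorem K_trans (hS : Cfsg.IsRankOneSetup G Ω a t Q) {s₁ s₂ : G}
    (hs₁ : s₁ ∈ Cfsg.involutionsIn (stabilizer G a : Set G))
    (hs₂ : s₂ ∈ Cfsg.involutionsIn (stabilizer G a : Set G)) :
    ∃ k ∈ Cfsg.invertedBy (stabilizer G a ⊓ stabilizer G (t • a)) t, k⁻¹ * s₁ * k = s₂ := by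
  obtain ⟨⟨s, r⟩, ⟨hs, hr, h⟩, -⟩ := Cfsg.Agent.S1123.result hS
  change s ∈ Cfsg.involutionsIn (stabilizer G a : Set G) at hs
  change r ∈ Q at hr
  change t * s * t = r⁻¹ * t * r at h
  obtain ⟨k₁, hk₁, rfl⟩ := K_trans_base hS hs hr h hs₁
  obtain ⟨k₂, hk₂, rfl⟩ := K_trans_base hS hs hr h hs₂
  have heD : k₁ * (k₂ * k₂) * k₁ ∈ stabilizer G a ⊓ stabilizer G (t • a) :=
    Subgroup.mul_mem _ (Subgroup.mul_mem _ hk₁.1 (Subgroup.mul_mem _ hk₂.1 hk₂.1)) hk₁.1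
  have heinv : t * (k₁ * (k₂ * k₂) * k₁) * t⁻¹ = (k₁ * (k₂ * k₂) * k₁)⁻¹ := by
    calc t * (k₁ * (k₂ * k₂) * k₁) * t⁻¹
        = (t * k₁ * t⁻¹) * ((t * k₂ * t⁻¹) * (t * k₂ * t⁻¹)) * (t * k₁ * t⁻¹) := by group
      _ = (k₁ * (k₂ * k₂) * k₁)⁻¹ := by rw [hk₁.2, hk₂.2]; group
  obtain ⟨n, hn⟩ := exists_sqrt_of_odd' (D_odd hS heD)
  have hpinv := pow_inverted heinv n
  have hpD : (k₁ * (k₂ * k₂) * k₁) ^ n ∈ stabilizer G a ⊓ stabilizer G (t • a) :=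
    Subgroup.pow_mem _ heD n
  set p := (k₁ * (k₂ * k₂) * k₁) ^ n with hp
  have hkD : k₁⁻¹ * p * k₁⁻¹ ∈ stabilizer G a ⊓ stabilizer G (t • a) :=
    Subgroup.mul_mem _ (Subgroup.mul_mem _ (Subgroup.inv_mem _ hk₁.1) hpD) (Subgroup.inv_mem _ hk₁.1)
  refine ⟨k₁⁻¹ * p * k₁⁻¹, ⟨hkD, ?_⟩, ?_⟩
  · calc t * (k₁⁻¹ * p * k₁⁻¹) * t⁻¹
        = (t * k₁ * t⁻¹)⁻¹ * (t * p * t⁻¹) * (t * k₁ * t⁻¹)⁻¹ := by group
      _ = (k₁⁻¹ * p * k₁⁻¹)⁻¹ := by rw [hk₁.2, hpinv]; group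
  · -- `v = p k₁⁻¹ k₂⁻¹` commutes with `t`
    have hvD : p * k₁⁻¹ * k₂⁻¹ ∈ stabilizer G a ⊓ stabilizer G (t • a) :=
      Subgroup.mul_mem _ (Subgroup.mul_mem _ hpD (Subgroup.inv_mem _ hk₁.1)) (Subgroup.inv_mem _ hk₂.1)
    have hvt : t * (p * k₁⁻¹ * k₂⁻¹) * t⁻¹ = p * k₁⁻¹ * k₂⁻¹ := by
      calc t * (p * k₁⁻¹ * k₂⁻¹) * t⁻¹
          = (t * p * t⁻¹) * (t * k₁ * t⁻¹)⁻¹ * (t * k₂ * t⁻¹)⁻¹ := by group
        _ = p⁻¹ * k₁ * k₂ := by rw [hpinv, hk₁.2, hk₂.2, inv_inv, inv_inv]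
        _ = p⁻¹ * (k₁ * (k₂ * k₂) * k₁) * k₁⁻¹ * k₂⁻¹ := by group
        _ = p⁻¹ * (p * p) * k₁⁻¹ * k₂⁻¹ := by rw [hn]
        _ = p * k₁⁻¹ * k₂⁻¹ := by group
    have hvt' : (p * k₁⁻¹ * k₂⁻¹) * t = t * (p * k₁⁻¹ * k₂⁻¹) := by
      calc (p * k₁⁻¹ * k₂⁻¹) * t = (t * (p * k₁⁻¹ * k₂⁻¹) * t⁻¹) * t := by rw [hvt]
        _ = t * (p * k₁⁻¹ * k₂⁻¹) := by group
    have hvs := V_le_cent hS hs hr h hvD hvt'
    calc (k₁⁻¹ * p * k₁⁻¹)⁻¹ * (k₁⁻¹ * s * k₁) * (k₁⁻¹ * p * k₁⁻¹)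
        = k₂⁻¹ * (p * k₁⁻¹ * k₂⁻¹)⁻¹ * (s * (p * k₁⁻¹ * k₂⁻¹)) * k₂ := by group
      _ = k₂⁻¹ * (p * k₁⁻¹ * k₂⁻¹)⁻¹ * ((p * k₁⁻¹ * k₂⁻¹) * s) * k₂ := by rw [hvs]
      _ = k₂⁻¹ * s * k₂ := by group

end RO

end Cfsg.Agent.Lib.Helper8
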