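import Mathlib
import Cfsg.Prelude.Def_LieRecognition
import Cfsg.Agent.Lib.Helper8.RankOne2

/-!
# The split rank-one set-up: canonical form
-/

namespace Cfsg.Agent.Lib.Helper8

open MulAction

variable {G Ω : Type*} [Group G] [MulAction G Ω] {a : Ω} {t : G} {Q : Subgroup G}

namespace RO

/-- uniqueness of the canonical form `g h t f` -/
theorem canon_unique (hS : Cfsg.IsRankOneSetup G Ω a t Q) {g h f g' h' f' : G}
    (hg : g ∈ Q) (hh : h ∈ stabilizer G a ⊓ stabilizer G (t • a)) (hf : f ∈ Q)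
    (hg' : g' ∈ Q) (hh' : h' ∈ stabilizer G a ⊓ stabilizer G (t • a)) (hf' : f' ∈ Q)
    (e : g * h * t * f = g' * h' * t * f') : g = g' ∧ h = h' ∧ f = f' := by
  have key : ∀ g h f : G, g ∈ Q → h ∈ stabilizer G a ⊓ stabilizer G (t • a) →
      (g * h * t * f)⁻¹ • a = f⁻¹ • t • a := by
    intro g h f hg hh
    have h1 : g⁻¹ • a = a := Q_fix hS (Q.inv_mem hg)
    have h2 : h⁻¹ • a = a := (Subgroup.inv_mem _ hh).1
    have : (g * h * t * f)⁻¹ = f⁻¹ * t * h⁻¹ * g⁻¹ := by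
      rw [mul_inv_rev, mul_inv_rev, mul_inv_rev, t_inv hS]; group
    rw [this, mul_smul, mul_smul, mul_smul, h1, h2]
  have h1 : f⁻¹ • t • a = f'⁻¹ • t • a := by
    rw [← key g h f hg hh, ← key g' h' f' hg' hh', e]
  have h2 : f = f' := inv_injective (Q_unique hS (ta_ne hS) (Q.inv_mem hf) (Q.inv_mem hf') h1)
  subst h2
  have h3 : g * h = g' * h' := mul_right_cancel (mul_right_cancel e)
  obtain ⟨h4, h5⟩ := decomp_unique hS hg hg' hh hh' h3
  exact ⟨h4, h5, rfl⟩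

end RO

end Cfsg.Agent.Lib.Helper8
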